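import Cfsg.Agent.Lib.Monster.Forms

/-!
The forms on the lattice modulo two in the Monster-type setting.
-/

namespace Cfsg.Agent.Lib.Monster

open Cfsg Golay Lib.Leech

/-- The data carried by a Monster-type identification. -/
structure Psi {P : Type*} [Group P] (ψ : ↥leechLattice → P ⧸ Subgroup.center P) : Prop where
  card_center : Nat.card (Subgroup.center P) = 2
  comm : ∀ a b : P, a * b * a⁻¹ * b⁻¹ ∈ Subgroup.center P
  sq : ∀ a : P, a * a ∈ Subgroup.center P
  add : ∀ v w, ψ (v + w) = ψ v * ψ w
  surj : Function.Surjective ψ
  ker : ∀ v, ψ v = 1 ↔ ∃ w, v = w + w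
  inv : ∀ g : ↥Co0, ∃ φ : P ≃* P, ∀ v a, ψ v = QuotientGroup.mk a → ψ (g • v) = QuotientGroup.mk (φ a)

theorem psi_of_monsterType {G : Type*} [Group G] [Finite G] {z : G}
    {Q : Subgroup (Subgroup.centralizer ({z} : Set G))} [Q.Normal] (hM : Cfsg.IsOfMonsterType z Q) :
    Nat.card Q = 2 ^ 25 ∧ ∃ ψ : ↥leechLattice → Q ⧸ Subgroup.center Q, Psi ψ := by
  obtain ⟨⟨-, -, ⟨⟨hp, hF, hC⟩, hc⟩, hcard, -⟩, e, ψ, hadd, hsurj, hker, hinv⟩ := hM
  refine ⟨hcard, ψ, ⟨hc, fun a b => ?_, fun a => ?_, hadd, hsurj, hker, fun g => ?_⟩⟩
  · rw [← hC, commutator_def]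
    exact Subgroup.commutator_mem_commutator (Subgroup.mem_top a) (Subgroup.mem_top b)
  · haveI : Fact (Nat.Prime 2) := ⟨Nat.prime_two⟩
    rw [← hF, ← pow_two]
    exact Lib.PGroupFrattini.pow_mem_frattini hp a
  · obtain ⟨x, hx⟩ := e.surjective (QuotientGroup.mk g)
    obtain ⟨h, rfl⟩ := QuotientGroup.mk_surjective x
    exact ⟨MulAut.conjNormal h, fun v a ha => hinv h g hx.symm v a ha⟩

namespace Psi

variable {P : Type*} [Group P] {ψ : ↥leechLattice → P ⧸ Subgroup.center P} (S : Psi ψ)
include S

theorem map_zero : ψ 0 = 1 := (S.ker 0).2 ⟨0, (add_zero 0).symm⟩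

theorem map_neg (v : ↥leechLattice) : ψ (-v) = ψ v := by
  have h1 : ψ (-v) * ψ v = 1 := by rw [← S.add, neg_add_cancel, S.map_zero]
  have h2 : ψ v * ψ v = 1 := by rw [← S.add]; exact (S.ker _).2 ⟨v, rfl⟩
  exact mul_right_cancel (h1.trans h2.symm)

/-- The squaring form on the lattice. -/
noncomputable def qform (_S : Psi ψ) (v : ↥leechLattice) : ZMod 2 := sqF (ψ v)

/-- The commutator form on the lattice. -/
noncomputable def bform (_S : Psi ψ) (v w : ↥leechLattice) : ZMod 2 := commF (ψ v) (ψ w)

theorem qform_add (v w : ↥leechLattice) : S.qform (v + w) = S.qform v + S.qform w + S.bform v w := by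
  rw [qform, S.add, sqF_mul S.card_center S.comm S.sq]; rfl

theorem bform_add (v w u : ↥leechLattice) : S.bform v (w + u) = S.bform v w + S.bform v u := by
  rw [bform, S.add, commF_mul_right S.card_center S.comm]; rfl

theorem bform_symm (v w : ↥leechLattice) : S.bform v w = S.bform w v := commF_symm S.card_center S.comm _ _

/-- The commutator form as an additive map. -/
noncomputable def bHom (v : ↥leechLattice) : ↥leechLattice →+ ZMod 2 := AddMonoidHom.mk' (S.bform v) (S.bform_add v)

theorem bform_inv (g : ↥Co0) (v w : ↥leechLattice) : S.bform (g • v) (g • w) = S.bform v w := by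
  obtain ⟨φ, hφ⟩ := S.inv g
  obtain ⟨a, ha⟩ := QuotientGroup.mk_surjective (ψ v)
  obtain ⟨b, hb⟩ := QuotientGroup.mk_surjective (ψ w)
  rw [bform, bform, hφ v a ha.symm, hφ w b hb.symm, ← ha, ← hb, commF_mk, commF_mk, ← map_inv, ← map_inv,
    ← map_mul, ← map_mul, ← map_mul, chi_map]

theorem qform_inv (g : ↥Co0) (v : ↥leechLattice) : S.qform (g • v) = S.qform v := by
  obtain ⟨φ, hφ⟩ := S.inv g
  obtain ⟨a, ha⟩ := QuotientGroup.mk_surjective (ψ v)
  rw [qform, qform, hφ v a ha.symm, ← ha, sqF_mk S.card_center, sqF_mk S.card_center, ← map_mul, chi_map]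

theorem congr_two (v w u : ↥leechLattice) (h : v = w + (u + u)) : ψ v = ψ w := by
  rw [h, S.add, (S.ker (u + u)).2 ⟨u, rfl⟩, mul_one]

/-- The frame vector. -/
def fr (i j : GolayPt) : ↥leechLattice := ⟨frame i j, frame_mem i j⟩

omit S in
theorem fr_comm (i j : GolayPt) : fr i j = fr j i := Subtype.ext (funext fun p => by simp only [fr, frame]; ring)

theorem psi_eight (i : GolayPt) : ψ (fr i i) = ψ (fr none none) := by
  have e : fr i i = fr none none + ((fr i none - fr none none) + (fr i none - fr none none)) :=
    Subtype.ext (funext fun p => by simp only [fr, frame, AddSubgroup.coe_add, AddSubgroup.coe_sub, Pi.add_apply, Pi.sub_apply]; ring)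
  exact S.congr_two _ _ _ e

theorem bform_eight_even (w : ↥leechLattice) (hw : ∀ i, (2 : ℤ) ∣ (w : GolayPt → ℤ) i) :
    S.bform (fr none none) w = 0 := by
  refine even_eq_zero (S.bHom (fr none none)) (fun c hc v => ?_) (fun σ hσ v => ?_) w hw
  · show S.bform _ (flipCo c hc • v) = S.bform _ v
    have e : ψ (flipCo c hc • fr none none) = ψ (fr none none) := by
      by_cases hn : (none : GolayPt) ∈ c
      · have : flipCo c hc • fr none none = -fr none none := Subtype.ext (funext fun p => by
          show (if p ∈ c then -frame none none p else frame none none p) = -frame none none p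
          by_cases hp : p = none
          · subst hp; rw [if_pos hn]
          · simp [frame, hp])
        rw [this, S.map_neg]
      · have : flipCo c hc • fr none none = fr none none := Subtype.ext (funext fun p => by
          show (if p ∈ c then -frame none none p else frame none none p) = frame none none p
          by_cases hp : p = none
          · subst hp; rw [if_neg hn]
          · simp [frame, hp])
        rw [this]
    conv_rhs => rw [← S.bform_inv (flipCo c hc) (fr none none) v]
    rw [bform, bform, e]
  · show S.bform _ (permCo σ hσ • v) = S.bform _ v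
    have e : ψ (permCo σ hσ • fr none none) = ψ (fr none none) := by
      have : permCo σ hσ • fr none none = fr (σ.symm none) (σ.symm none) := Subtype.ext (funext fun p => by
        show frame none none (σ p) = frame (σ.symm none) (σ.symm none) p
        simp only [frame, Equiv.eq_symm_apply])
      rw [this, S.psi_eight]
    conv_rhs => rw [← S.bform_inv (permCo σ hσ) (fr none none) v]
    rw [bform, bform, e]

theorem fr_even (a b i : GolayPt) : (2 : ℤ) ∣ (fr a b : GolayPt → ℤ) i := by
  show (2 : ℤ) ∣ frame a b i
  simp only [frame]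
  split_ifs <;> norm_num

omit S in
theorem perm_fr {σ : Equiv.Perm GolayPt} (hσ : σ ∈ M24) (a b : GolayPt) :
    permCo σ hσ • fr (σ a) (σ b) = fr a b := Subtype.ext (funext fun p => by
  show frame (σ a) (σ b) (σ p) = frame a b p
  simp only [frame, σ.injective.eq_iff])

theorem bform_frames (a b k l : GolayPt) : S.bform (fr a b) (fr k l) = 0 := by
  have hflip : ∀ a b w, (∀ i, (2 : ℤ) ∣ ((w : ↥leechLattice) : GolayPt → ℤ) i) → ∀ c (hc : c ∈ codeSets),
      S.bform (fr a b) (flipCo c hc • w) = S.bform (fr a b) w := by
    intro a b w hw c hc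
    have hw' : ∀ i, (2 : ℤ) ∣ ((flipCo c hc • w : ↥leechLattice) : GolayPt → ℤ) i := fun i => by
      show (2 : ℤ) ∣ if i ∈ c then -(w : GolayPt → ℤ) i else (w : GolayPt → ℤ) i
      split_ifs
      · exact dvd_neg.2 (hw i)
      · exact hw i
    -- the class of a frame vector moves by at most the class of `8e`
    have e : ψ (flipCo c hc • fr a b) = ψ (fr a b) ∨ ψ (flipCo c hc • fr a b) = ψ (fr a b) * ψ (fr none none) := by
      rcases eq_or_ne a b with rfl | hab
      · left
        by_cases ha : a ∈ c
        · have : flipCo c hc • fr a a = -fr a a := Subtype.ext (funext fun p => by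
            show (if p ∈ c then -frame a a p else frame a a p) = -frame a a p
            by_cases hp : p = a
            · subst hp; rw [if_pos ha]
            · simp [frame, hp])
          rw [this, S.map_neg]
        · have : flipCo c hc • fr a a = fr a a := Subtype.ext (funext fun p => by
            show (if p ∈ c then -frame a a p else frame a a p) = frame a a p
            by_cases hp : p = a
            · subst hp; rw [if_neg ha]
            · simp [frame, hp])
          rw [this]
      · by_cases ha : a ∈ c <;> by_cases hb : b ∈ c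
        · left
          have : flipCo c hc • fr a b = -fr a b := Subtype.ext (funext fun p => by
            show (if p ∈ c then -frame a b p else frame a b p) = -frame a b p
            by_cases hp : p = a ∨ p = b
            · rcases hp with hp | hp <;> rw [hp] <;> simp [ha, hb]
            · push Not at hp; simp [frame, hp.1, hp.2])
          rw [this, S.map_neg]
        · right
          have : flipCo c hc • fr a b = fr a b + -fr a a := Subtype.ext (funext fun p => by
            show (if p ∈ c then -frame a b p else frame a b p) = frame a b p + -frame a a p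
            by_cases hp : p = a
            · rw [hp, if_pos ha]; simp [frame, hab]
            · by_cases hp' : p = b
              · rw [hp', if_neg hb]; simp [frame, Ne.symm hab]
              · simp [frame, hp, hp'])
          rw [this, S.add, S.map_neg, S.psi_eight]
        · right
          have : flipCo c hc • fr a b = fr a b + -fr b b := Subtype.ext (funext fun p => by
            show (if p ∈ c then -frame a b p else frame a b p) = frame a b p + -frame b b p
            by_cases hp : p = b
            · rw [hp, if_pos hb]; simp [frame, Ne.symm hab]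
            · by_cases hp' : p = a
              · rw [hp', if_neg ha]; simp [frame, hab]
              · simp [frame, hp, hp'])
          rw [this, S.add, S.map_neg, S.psi_eight]
        · left
          have : flipCo c hc • fr a b = fr a b := Subtype.ext (funext fun p => by
            show (if p ∈ c then -frame a b p else frame a b p) = frame a b p
            by_cases hp : p = a ∨ p = b
            · rcases hp with hp | hp <;> rw [hp] <;> simp [ha, hb]
            · push Not at hp; simp [frame, hp.1, hp.2])
          rw [this]
    conv_rhs => rw [← S.bform_inv (flipCo c hc) (fr a b) w]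
    rcases e with e | e
    · rw [bform, bform, e]
    · rw [bform, bform, e, ← S.add]
      show _ = S.bform (fr a b + fr none none) (flipCo c hc • w)
      rw [S.bform_symm (fr a b + fr none none), S.bform_add, S.bform_symm _ (fr none none),
        S.bform_eight_even _ hw', add_zero, S.bform_symm]
      rfl
  have h1618 : ∀ a b, S.bform (fr a b) (fr (pt 16) (pt 18)) = 0 := by
    intro a b
    let w : ↥leechLattice := ⟨twoW 0xc75001, twoW_mem _ (by decide)⟩
    have hwe : ∀ i, (2 : ℤ) ∣ (w : GolayPt → ℤ) i := fun i => by
      show (2 : ℤ) ∣ twoW 0xc75001 i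
      unfold twoW; split_ifs <;> norm_num
    have hc : toSet 0x3da100 ∈ codeSets := codeSet_of_isCode (by decide +kernel)
    have e : w = flipCo (toSet 0x3da100) hc • w + fr (pt 16) (pt 18) := Subtype.ext (funext fun p => by
      have := congrFun oct_flip p
      show twoW 0xc75001 p = (if p ∈ toSet 0x3da100 then -twoW 0xc75001 p else twoW 0xc75001 p) + frame (pt 16) (pt 18) p
      split_ifs with h <;> simp only [h, if_true, if_false] at this <;> omega)
    have := congrArg (S.bform (fr a b)) e
    rw [S.bform_add, hflip a b w hwe _ hc] at this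
    exact left_eq_add.1 this
  rcases eq_or_ne k l with rfl | hkl
  · rw [S.bform_symm, bform, S.psi_eight]
    exact S.bform_eight_even _ fun i => S.fr_even a b i
  · obtain ⟨σ, hσ, h1, h2⟩ := M24_trans_pairs hkl (show pt 16 ≠ pt 18 by decide)
    have := S.bform_inv (permCo σ hσ) (fr (σ a) (σ b)) (fr (σ k) (σ l))
    rw [perm_fr, perm_fr] at this
    rw [this, h1, h2]
    exact h1618 _ _

theorem qform_eight : S.qform (fr none none) = 0 := by
  obtain ⟨m, hm, hm0, hm1⟩ : ∃ m, isCode m = true ∧ (none : GolayPt) ∉ toSet m ∧ (some 0 : GolayPt) ∈ toSet m := by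
    have hsep : isCode 0x49f002 = true := by decide +kernel
    obtain ⟨q, r, hq, hr⟩ : ∃ q r : GolayPt, q ∈ toSet 0x49f002 ∧ r ∉ toSet 0x49f002 :=
      ⟨pt 1, pt 0, by simp only [mem_toSet]; decide +kernel, by simp only [mem_toSet]; decide +kernel⟩
    obtain ⟨τ, hτ, g1, g2⟩ := M24_trans_pairs (show (none : GolayPt) ≠ some 0 by decide) (show r ≠ q from fun e => hr (e ▸ hq))
    obtain ⟨m, hm, hm'⟩ := mem_codeSets.1 (mem_codeSets_smul (inv_mem hτ) (codeSet_of_isCode hsep))
    refine ⟨m, hm, ?_, ?_⟩
    · rw [hm', ← Finset.inv_smul_mem_iff, inv_inv, Equiv.Perm.smul_def, g1]; exact hr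
    · rw [hm', ← Finset.inv_smul_mem_iff, inv_inv, Equiv.Perm.smul_def, g2]; exact hq
  have hc := codeSet_of_isCode hm
  have e : flipCo (toSet m) hc • fr none (some 0) = fr none (some 0) + -fr (some 0) (some 0) := Subtype.ext (funext fun p => by
    show (if p ∈ toSet m then -frame none (some 0) p else frame none (some 0) p) = frame none (some 0) p + -frame (some 0) (some 0) p
    by_cases hp : p = some 0
    · rw [hp, if_pos hm1]; simp [frame]
    · by_cases hp' : p = none
      · rw [hp', if_neg hm0]; simp [frame]
      · simp [frame, hp, hp'])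
  have h := S.qform_inv (flipCo (toSet m) hc) (fr none (some 0))
  rw [e, S.qform_add] at h
  have e2 : ψ (-fr (some 0) (some 0)) = ψ (fr none none) := by rw [S.map_neg, S.psi_eight]
  rw [show S.qform (-fr (some 0) (some 0)) = S.qform (fr none none) by rw [qform, qform, e2],
    show S.bform (fr none (some 0)) (-fr (some 0) (some 0)) = S.bform (fr none (some 0)) (fr none none) by rw [bform, bform, e2],
    S.bform_frames, add_zero] at h
  exact add_eq_left.1 h

theorem qform_frames (a b : GolayPt) : S.qform (fr a b) = 0 := by
  rcases eq_or_ne a b with rfl | hab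
  · rw [qform, S.psi_eight]; exact S.qform_eight
  -- all off-diagonal frame vectors have the same value
  have hsame : ∀ k l : GolayPt, k ≠ l → S.qform (fr k l) = S.qform (fr a b) := by
    intro k l hkl
    obtain ⟨σ, hσ, h1, h2⟩ := M24_trans_pairs hkl hab
    rw [← h1, ← h2, ← S.qform_inv (permCo σ hσ) (fr (σ k) (σ l)), perm_fr]
  obtain ⟨c, hca, hcb⟩ : ∃ c : GolayPt, c ≠ a ∧ c ≠ b := by
    obtain ⟨c, hc⟩ := Finset.exists_mem_notMem_of_card_lt_card (s := ({a, b} : Finset GolayPt)) (t := Finset.univ)
      ((Finset.card_le_two).trans_lt (by decide))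
    simp at hc
    exact ⟨c, hc.1, hc.2⟩
  have e : fr a b + fr b c = fr a c + fr b b := Subtype.ext (funext fun p => by
    simp only [fr, frame, AddSubgroup.coe_add, Pi.add_apply]; ring)
  have h := congrArg S.qform e
  rw [S.qform_add, S.qform_add, S.bform_frames, S.bform_frames, hsame b c (Ne.symm hcb), hsame a c (Ne.symm hca),
    show S.qform (fr b b) = 0 by rw [qform, S.psi_eight]; exact S.qform_eight, add_zero, add_zero, add_zero] at h
  exact add_eq_left.1 h

end Psi

end Cfsg.Agent.Lib.Monster
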