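import Cfsg.Agent.Lib.Monster.Frames
import Cfsg.Agent.Lib.Components.Local

/-!
The centralizer of a non-conjugate involution of `Q` in a Monster-type group.
-/

set_option autoImplicit false

namespace Cfsg.Agent.Lib.Monster

open Cfsg Golay Lib.Leech Lib.LargeExtra

/-- The inclusion of the second group. -/
def co2Incl : ↥Spor.Co2 →* ↥Co0 := Subgroup.inclusion inf_le_left

theorem co2Incl_inj : Function.Injective co2Incl := Subgroup.inclusion_injective _

theorem co2Incl_fix (g : ↥Spor.Co2) : co2Incl g • Spor.leechU = Spor.leechU := g.2.2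

theorem sqNorm_leechU : sqNorm (Spor.leechU : GolayPt → ℤ) = 32 := by decide +kernel

theorem co2_mem {u : ↥Co0} (h : u • Spor.leechU = Spor.leechU) : ∃ g : ↥Spor.Co2, co2Incl g = u :=
  ⟨⟨u, u.2, h⟩, rfl⟩

theorem negCo_ne {v : ↥leechLattice} (hv : sqNorm (v : GolayPt → ℤ) = 32) : negCo • v ≠ v := fun e0 => by
  have h0 : ∀ i, (v : GolayPt → ℤ) i = 0 := fun i => by
    have := congrArg (fun t : ↥leechLattice => (t : GolayPt → ℤ) i) e0
    simp only [negCo_smul, AddSubgroup.coe_neg, Pi.neg_apply] at this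
    omega
  simp [sqNorm, h0] at hv

theorem co2_two_normal (N : Subgroup ↥Spor.Co2) [N.Normal] (hp : IsPGroup 2 N) : N = ⊥ := by
  obtain ⟨k, hk⟩ := trans_min sqNorm_leechU uVec_facts.1
  have h := two_normal_bot ((N.map co2Incl).map (MulAut.conj k).toMonoidHom)
    (by
      rintro _ ⟨_, ⟨m, -, rfl⟩, rfl⟩
      show (k * co2Incl m * k⁻¹) • uVec = uVec
      rw [← hk, mul_smul, mul_smul, inv_smul_smul, co2Incl_fix])
    ((hp.map _).map _)
    (by
      rintro j hj _ ⟨_, ⟨m, hm, rfl⟩, rfl⟩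
      obtain ⟨c, hc⟩ := co2_mem (u := k⁻¹ * j * k) (by
        rw [mul_smul, mul_smul, hk, show j • uVec = uVec from hj, ← hk, inv_smul_smul])
      refine ⟨_, ⟨c * m * c⁻¹, (inferInstance : N.Normal).conj_mem m hm c, rfl⟩, ?_⟩
      simp only [map_mul, map_inv, hc, MulEquiv.coe_toMonoidHom, MulAut.conj_apply]
      group)
  rw [eq_bot_iff]
  intro m hm
  have h2 : k * co2Incl m * k⁻¹ ∈ (N.map co2Incl).map (MulAut.conj k).toMonoidHom := ⟨_, ⟨m, hm, rfl⟩, rfl⟩
  rw [h, Subgroup.mem_bot, conj_eq_one_iff] at h2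
  exact Subgroup.mem_bot.2 (co2Incl_inj (h2.trans (map_one _).symm))

/-- A criterion for an extraspecial 2-group. -/
theorem extraspecial_of {R : Type*} [Group R] [Finite R] (hp : IsPGroup 2 R) (c : R) (hc1 : c ≠ 1)
    (hcc : ∀ a, a * c = c * a) (hcomm : ∀ a b : R, a * b * a⁻¹ * b⁻¹ = 1 ∨ a * b * a⁻¹ * b⁻¹ = c)
    (hsq : ∀ a : R, a * a = 1 ∨ a * a = c) (hcen : ∀ a, (∀ b, b * a = a * b) → a = 1 ∨ a = c)
    (hne : ∃ a b : R, a * b ≠ b * a) : IsExtraspecial 2 R := by
  haveI : Fact (Nat.Prime 2) := ⟨Nat.prime_two⟩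
  have hzc : c ∈ Subgroup.center R := Subgroup.mem_center_iff.2 hcc
  have hor : ∀ x : R, x = 1 ∨ x = c → x ∈ Subgroup.center R := by
    rintro x (rfl | rfl)
    exacts [one_mem _, hzc]
  have hcomm_le : commutator R ≤ Subgroup.center R := by
    rw [commutator_def, Subgroup.commutator_le]
    intro a _ b _
    exact hor _ (by simpa [commutatorElement_def] using hcomm a b)
  have hle : Subgroup.center R ≤ commutator R := by
    intro x hx
    rcases hcen x (Subgroup.mem_center_iff.1 hx) with rfl | rfl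
    · exact one_mem _
    · obtain ⟨a, b, hab⟩ := hne
      rw [commutator_def]
      have e : a * b * a⁻¹ * b⁻¹ = x :=
        (hcomm a b).resolve_left fun e => hab (commutatorElement_eq_one_iff_mul_comm.1 e)
      rw [← e, ← commutatorElement_def]
      exact Subgroup.commutator_mem_commutator (Subgroup.mem_top _) (Subgroup.mem_top _)
  have heq : commutator R = Subgroup.center R := le_antisymm hcomm_le hle
  refine ⟨⟨hp, le_antisymm ?_ (hle.trans (Lib.PGroupFrattini.commutator_le_frattini hp)), heq⟩, ?_⟩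
  · exact Lib.PGroupFrattini.frattini_le Nat.prime_two _ hcomm_le fun x => hor _ (by simpa [pow_two] using hsq x)
  · rw [Nat.card_eq_two_iff' (1 : Subgroup.center R)]
    refine ⟨⟨c, hzc⟩, fun e => hc1 (congrArg (fun q : Subgroup.center R => (q : R)) e), ?_⟩
    rintro ⟨x, hx⟩ hx1
    rcases hcen x (Subgroup.mem_center_iff.1 hx) with rfl | rfl
    · exact absurd rfl hx1
    · rfl

section Cent

variable {G : Type*} [Group G] [Finite G] {P : Subgroup G} {y : G} (hP : Singular.Good P y)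
include hP

omit [Finite G] in
theorem cent_cases {a q0 : G} (ha : a ∈ P) (hq0 : q0 * a * q0⁻¹ = y * a) {u : G} (hu : u ∈ P) :
    u * a = a * u ∨ (q0⁻¹ * u) * a = a * (q0⁻¹ * u) := by
  rcases hP.comm u hu a ha with e | e
  · exact Or.inl ((Singular.comm_iff _ _).1 e)
  · right
    have e' : u * a = y * a * u := by rw [← e]; group
    calc q0⁻¹ * u * a = q0⁻¹ * (y * a * u) := by rw [mul_assoc, e']
      _ = q0⁻¹ * (q0 * a * q0⁻¹) * u := by rw [hq0]; group
      _ = _ := by group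

theorem card_cent {a : G} (ha : a ∈ P) (h1 : a ≠ 1) (h2 : a ≠ y) :
    Nat.card ↥(P ⊓ Subgroup.centralizer ({a} : Set G)) * 2 = Nat.card P := by
  obtain ⟨q0, hq0, hq0a⟩ := Singular.exists_mover hP ha h1 h2
  have hidx : ((P ⊓ Subgroup.centralizer ({a} : Set G)).subgroupOf P).index = 2 := by
    rw [Subgroup.index_eq_two_iff]
    refine ⟨⟨q0⁻¹, inv_mem hq0⟩, fun b => ?_⟩
    have hmemB : ∀ q : ↥P, q ∈ (P ⊓ Subgroup.centralizer ({a} : Set G)).subgroupOf P ↔ (q : G) * a = a * (q : G) := fun q => by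
      rw [Subgroup.mem_subgroupOf, Subgroup.mem_inf, Subgroup.mem_centralizer_singleton_iff]
      exact and_iff_right q.2
    rw [hmemB, hmemB]
    have hno : ¬ q0⁻¹ * a = a * q0⁻¹ := fun e => hP.ne (mul_eq_right.1 (by
      calc y * a = q0 * a * q0⁻¹ := hq0a.symm
        _ = q0 * (q0⁻¹ * a) := by rw [mul_assoc, ← e]
        _ = a := by group))
    rcases cent_cases hP ha hq0a b.2 with e | e
    · exact Or.inr ⟨e, fun e2 => hno (by
        calc q0⁻¹ * a = (b : G)⁻¹ * (((b : G) * q0⁻¹) * a) := by group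
          _ = (b : G)⁻¹ * (a * ((b : G) * q0⁻¹)) := by rw [show ((b : G) * q0⁻¹) * a = a * ((b : G) * q0⁻¹) from e2]
          _ = (b : G)⁻¹ * ((a * (b : G)) * q0⁻¹) := by group
          _ = _ := by rw [← e]; group)⟩
    · have hbn : ¬ (b : G) * a = a * b := fun eb => hno (by
        calc q0⁻¹ * a = q0⁻¹ * ((b : G) * a) * (b : G)⁻¹ * 1 := by rw [eb]; group
          _ = (q0⁻¹ * (b : G) * a) * (b : G)⁻¹ := by group
          _ = _ := by rw [e]; group)
      refine Or.inl ⟨?_, hbn⟩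
      show ((b : G) * q0⁻¹) * a = a * ((b : G) * q0⁻¹)
      rcases hP.comm q0⁻¹ (inv_mem hq0) a ha with f | f
      · exact absurd ((Singular.comm_iff _ _).1 f) hno
      · rcases hP.comm b b.2 a ha with f' | f'
        · exact absurd ((Singular.comm_iff _ _).1 f') hbn
        · have f1 : q0⁻¹ * a = y * a * q0⁻¹ := by rw [← f]; group
          have f2 : (b : G) * a = y * a * b := by rw [← f']; group
          calc (b : G) * q0⁻¹ * a = (b : G) * (y * a * q0⁻¹) := by rw [mul_assoc, f1]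
            _ = ((b : G) * y) * a * q0⁻¹ := by group
            _ = y * ((b : G) * a) * q0⁻¹ := by rw [hP.le b b.2]; group
            _ = y * y * a * (b : G) * q0⁻¹ := by rw [f2]; group
            _ = _ := by rw [hP.sq, one_mul, mul_assoc]
  have h := Subgroup.card_mul_index ((P ⊓ Subgroup.centralizer ({a} : Set G)).subgroupOf P)
  rwa [hidx, Nat.card_congr (Subgroup.subgroupOfEquivOfLe inf_le_left).toEquiv] at h

/-- An element acting trivially on the centralizer of `t` in `P` modulo `t` has fourth power in `P`. -/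
theorem inner_four (hcq : ∀ c, (∀ q ∈ P, c * q = q * c) → c ∈ P) {t x : G} (ht : t ∈ P) (ht1 : t ≠ 1) (hty : t ≠ y)
    (ht2 : t * t = 1) (hxy : x * y = y * x) (hxt : x * t = t * x)
    (hx : ∀ u ∈ P, u * t = t * u → x * u * x⁻¹ = u ∨ x * u * x⁻¹ = u * t) : x * x * (x * x) ∈ P := by
  obtain ⟨q0, hq0, hq0t⟩ := Singular.exists_mover hP ht ht1 hty
  have hct : x * t * x⁻¹ = t := mul_inv_eq_iff_eq_mul.2 hxt
  have hfix : ∀ u ∈ P, u * t = t * u → (x * x) * u * (x * x)⁻¹ = u := by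
    intro u hu hut
    rw [show (x * x) * u * (x * x)⁻¹ = x * (x * u * x⁻¹) * x⁻¹ by group]
    rcases hx u hu hut with e | e <;> rw [e]
    · exact e
    · rw [show x * (u * t) * x⁻¹ = (x * u * x⁻¹) * (x * t * x⁻¹) by group, e, hct, mul_assoc, ht2, mul_one]
  set r := x * x with hr
  have hry : r * y = y * r := (Commute.mul_left hxy hxy).eq
  have hrt : r * t = t * r := (Commute.mul_left hxt hxt).eq
  let d := q0⁻¹ * (r * q0 * r⁻¹)
  have hd : d ∈ P := mul_mem (inv_mem hq0) (hP.norm r hry q0 hq0)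
  have hdt : d * t = t * d := by
    refine mul_inv_eq_iff_eq_mul.1 ?_
    have a1 : r * t * r⁻¹ = t := mul_inv_eq_iff_eq_mul.2 hrt
    have a2 : r * y * r⁻¹ = y := mul_inv_eq_iff_eq_mul.2 hry
    calc d * t * d⁻¹ = q0⁻¹ * (r * (q0 * (r⁻¹ * t * r) * q0⁻¹) * r⁻¹) * q0 := by simp only [d]; group
      _ = q0⁻¹ * ((r * y * r⁻¹) * (r * t * r⁻¹)) * q0 := by
        rw [show r⁻¹ * t * r = t by rw [mul_assoc, ← hrt, inv_mul_cancel_left], hq0t]; group
      _ = q0⁻¹ * (q0 * t * q0⁻¹) * q0 := by rw [a1, a2, hq0t]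
      _ = t := by group
  have hr0 : r * q0 * r⁻¹ = q0 * d := by simp only [d]; group
  have hrr : (r * r) * q0 * (r * r)⁻¹ = q0 * (d * d) := by
    calc (r * r) * q0 * (r * r)⁻¹ = (r * q0 * r⁻¹) * (r * (q0⁻¹ * (r * q0 * r⁻¹)) * r⁻¹) := by group
      _ = (r * q0 * r⁻¹) * (r * d * r⁻¹) := rfl
      _ = _ := by rw [hfix d hd hdt, hr0, mul_assoc]
  refine mem_of_inner hP ((Commute.mul_left hry hry).eq) hcq fun u hu => ?_
  have hrr2 : ∀ w ∈ P, w * t = t * w → (r * r) * w * (r * r)⁻¹ = w := fun w hw hwt => by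
    rw [show (r * r) * w * (r * r)⁻¹ = r * (r * w * r⁻¹) * r⁻¹ by group, hfix w hw hwt, hfix w hw hwt]
  rcases cent_cases hP ht hq0t hu with hut | hut
  · exact Or.inl (hrr2 u hu hut)
  · have e : (r * r) * u * (r * r)⁻¹ = ((r * r) * q0 * (r * r)⁻¹) * ((r * r) * (q0⁻¹ * u) * (r * r)⁻¹) := by group
    rw [hrr, hrr2 _ (mul_mem (inv_mem hq0) hu) hut] at e
    rcases hP.sqr d hd with f | f
    · left; rw [e, f]; group
    · right
      rw [e, f, hP.le q0 hq0]
      group

end Cent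

variable {G : Type*} [Group G] [Finite G] {z : G} {Q : Subgroup (Subgroup.centralizer ({z} : Set G))} [Q.Normal]
  {e : (Subgroup.centralizer ({z} : Set G)) ⧸ Q ≃* Spor.Co1} {ψ : ↥leechLattice → ↥Q ⧸ Subgroup.center ↥Q}
  (hS : IsExtraspecialCentralizerSetting z Q 12) (hψ : IsLeechModTwoIso Q e ψ)
include hS hψ

/-- An isometry fixing the class of a minimal vector fixes it up to sign. -/
theorem fix_of_psi {u : ↥Co0} {v : ↥leechLattice} (hv : sqNorm (v : GolayPt → ℤ) = 32) (h : ψ (u • v) = ψ v) :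
    ∃ n, n • v = v ∧ (QuotientGroup.mk n : Spor.Co1) = QuotientGroup.mk u := by
  have S := psi_of hS hψ
  have hker : ψ (u • v + -v) = 1 := by
    rw [S.add, S.map_neg, h, ← S.add]; exact (hψ.2.2.1 _).2 ⟨v, rfl⟩
  obtain ⟨w, hw⟩ := (hψ.2.2.1 _).1 hker
  have hn' : sqNorm ((u • v : ↥leechLattice) : GolayPt → ℤ) = 32 := (Same.sqNorm_eq ⟨u, rfl⟩).trans hv
  have hd : ((u • v : ↥leechLattice) : GolayPt → ℤ) - (v : GolayPt → ℤ) = 2 • (w : GolayPt → ℤ) := by
    have := congrArg (Subtype.val : ↥leechLattice → GolayPt → ℤ) hw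
    simp only [AddSubgroup.coe_add, AddSubgroup.coe_neg] at this
    rw [two_nsmul, ← this]; abel
  rcases short_congr v.2 (by omega) (by omega) ⟨_, w.2, hd⟩ with r | r | r
  · exact ⟨u, Subtype.ext r, rfl⟩
  · refine ⟨negCo * u, ?_, ?_⟩
    · rw [mul_smul, negCo_smul]
      exact Subtype.ext (by rw [AddSubgroup.coe_neg, r, neg_neg])
    · rw [QuotientGroup.mk_mul, (QuotientGroup.eq_one_iff negCo).2, one_mul]
      exact Subgroup.mem_center_iff.2 fun k => co_ext fun i => by rw [mul_smul, mul_smul, negCo_smul, negCo_smul, smul_neg']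
  · omega

/-- The commutator form against a minimal vector. -/
theorem perp_iff (x : ↥leechLattice) :
    (16 : ℤ) ∣ dotInt (x : GolayPt → ℤ) Spor.vecU ↔ (psi_of hS hψ).bform x Spor.leechU = 0 := by
  have h := (psi_of hS hψ).qform_add x Spor.leechU
  rw [qform_eq hS hψ, qform_eq hS hψ, qform_eq hS hψ, sqNorm_leechU] at h
  have hn : sqNorm ((x + Spor.leechU : ↥leechLattice) : GolayPt → ℤ) =
      sqNorm (x : GolayPt → ℤ) + 32 + 2 * dotInt (x : GolayPt → ℤ) Spor.vecU := by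
    rw [← sqNorm_leechU]
    simp only [sqNorm, dotInt, AddSubgroup.coe_add, Pi.add_apply, Finset.mul_sum, ← Finset.sum_add_distrib]
    exact Finset.sum_congr rfl fun i _ => by show _ = _ + Spor.vecU i ^ 2 + _; simp only [Spor.leechU]; ring
  have h16 := norm16 x
  have h16' := norm16 (x + Spor.leechU)
  rw [hn] at h16' h
  have e : (sqNorm (x : GolayPt → ℤ) + 32 + 2 * dotInt (x : GolayPt → ℤ) Spor.vecU) / 16 =
      sqNorm (x : GolayPt → ℤ) / 16 + 32 / 16 + dotInt (x : GolayPt → ℤ) Spor.vecU / 8 := by omega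
  rw [e, Int.cast_add, Int.cast_add] at h
  rw [← add_left_cancel h, ZMod.intCast_zmod_eq_zero_iff_dvd]
  omega

/-- The projection of the joint centralizer onto the second group. -/
theorem kproj {b : ↥Q} {w : ↥leechLattice} (hw : sqNorm (w : GolayPt → ℤ) = 32) (hwb : ψ w = QuotientGroup.mk b)
    {k : ↥Co0} (hk : k • w = Spor.leechU) :
    ∃ F : ↥(Subgroup.centralizer ({z} : Set G) ⊓ Subgroup.centralizer ({val b} : Set G)) →* ↥Spor.Co2,
      Function.Surjective F ∧
      (∀ x, (QuotientGroup.mk (k⁻¹ * co2Incl (F x) * k) : Spor.Co1) =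
        e (QuotientGroup.mk (Subgroup.inclusion inf_le_left x))) ∧
      ∀ x, F x = 1 ↔ (x : G) ∈ Q.map (Subgroup.centralizer ({z} : Set G)).subtype := by
  obtain ⟨hb1, hbz, -⟩ := min_not_conj hS hψ hw hwb
  let K := Subgroup.centralizer ({z} : Set G) ⊓ Subgroup.centralizer ({val b} : Set G)
  let q : ↥K →* (Subgroup.centralizer ({z} : Set G)) ⧸ Q := (QuotientGroup.mk' Q).comp (Subgroup.inclusion inf_le_left)
  let Φ : ↥Spor.Co2 →* (Subgroup.centralizer ({z} : Set G)) ⧸ Q :=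
    e.symm.toMonoidHom.comp ((QuotientGroup.mk' (Subgroup.center ↥Co0)).comp ((MulAut.conj k⁻¹).toMonoidHom.comp co2Incl))
  have hΦ : ∀ g, e (Φ g) = QuotientGroup.mk (k⁻¹ * co2Incl g * k) := fun g => by
    show e (e.symm (QuotientGroup.mk (k⁻¹ * co2Incl g * (k⁻¹)⁻¹))) = _
    rw [inv_inv, MulEquiv.apply_symm_apply]
  have hΦi : Function.Injective Φ := by
    rw [injective_iff_map_eq_one]
    intro g hg
    have h1 := hΦ g
    rw [hg, map_one, eq_comm, QuotientGroup.eq_one_iff] at h1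
    rcases center_cases h1 with r | r
    · refine co2Incl_inj ?_
      rw [map_one]
      calc co2Incl g = k * (k⁻¹ * co2Incl g * k) * k⁻¹ := by group
        _ = 1 := by rw [r]; group
    · refine absurd ?_ (negCo_ne hw)
      rw [← r, mul_smul, mul_smul, hk, co2Incl_fix, ← hk, inv_smul_smul]
  have hrange : ∀ g, ∃ x, q x = Φ g := by
    intro g
    have hfix : (k⁻¹ * co2Incl g * k) • w = w := by rw [mul_smul, mul_smul, hk, co2Incl_fix, ← hk, inv_smul_smul]
    obtain ⟨c, hc, hcb⟩ := lift_eq hS hψ hwb hwb (congrArg ψ hfix) hb1 hbz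
    refine ⟨⟨c, c.2, Subgroup.mem_centralizer_singleton_iff.2 (mul_inv_eq_iff_eq_mul.1 hcb)⟩, e.injective ?_⟩
    rw [hΦ, hc]; rfl
  have hmem : ∀ x, q x ∈ Φ.range := by
    intro x
    obtain ⟨u, hu⟩ := QuotientGroup.mk_surjective (e (q x))
    have hxb : (x : G) * val b * (x : G)⁻¹ = val b :=
      mul_inv_eq_iff_eq_mul.2 (Subgroup.mem_centralizer_singleton_iff.1 x.2.2)
    obtain ⟨n, hn, hnu⟩ := fix_of_psi hS hψ (u := u) hw (by
      rw [hψ.2.2.2 (Subgroup.inclusion inf_le_left x) u hu w b hwb, hwb]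
      exact congrArg _ (Subtype.ext (Subtype.ext hxb)))
    obtain ⟨g, hg⟩ := co2_mem (u := k * n * k⁻¹) (by rw [← hk, mul_smul, mul_smul, inv_smul_smul, hn])
    refine ⟨g, e.injective ?_⟩
    rw [hΦ, ← hu, ← hnu, hg]
    congr 1
    group
  let F : ↥K →* ↥Spor.Co2 := (MonoidHom.ofInjective hΦi).symm.toMonoidHom.comp (q.codRestrict Φ.range hmem)
  have hF : ∀ x, Φ (F x) = q x := fun x =>
    congrArg Subtype.val ((MonoidHom.ofInjective hΦi).apply_symm_apply (⟨q x, hmem x⟩ : Φ.range))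
  refine ⟨F, fun g => ?_, fun x => ?_, fun x => ?_⟩
  · obtain ⟨x, hx⟩ := hrange g
    exact ⟨x, hΦi ((hF x).trans hx)⟩
  · rw [← hΦ, hF]; rfl
  · rw [← hΦi.eq_iff, hF, map_one]
    refine (QuotientGroup.eq_one_iff _).trans ⟨fun h => ⟨_, h, rfl⟩, ?_⟩
    rintro ⟨a, ha, hax⟩
    exact (Subtype.ext hax : a = Subgroup.inclusion inf_le_left x) ▸ ha

end Cfsg.Agent.Lib.Monster
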