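import Cfsg.Agent.Lib.Monster.Setting
import Cfsg.Agent.Lib.Leech.Co2Core
import Cfsg.Agent.Lib.Leech.Covering
import Cfsg.Agent.Lib.LargeExtra.Pair
import Cfsg.Agent.Lib.LargeExtra.Centralizer
import Cfsg.Agent.Lib.LargeExtra.Width
import Cfsg.Agent.S5552

/-!
Involutions in the extraspecial subgroup of a Monster-type group.
-/

set_option autoImplicit false

namespace Cfsg.Agent.Lib.Monster

open Cfsg Golay Lib.Leech Lib.LargeExtra

variable {G : Type*} [Group G] {z : G} {Q : Subgroup (Subgroup.centralizer ({z} : Set G))} [Q.Normal]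
  {e : (Subgroup.centralizer ({z} : Set G)) ⧸ Q ≃* Spor.Co1} {ψ : ↥leechLattice → ↥Q ⧸ Subgroup.center ↥Q}

/-- The underlying element of the ambient group. -/
abbrev val (a : ↥Q) : G := ((a : Subgroup.centralizer ({z} : Set G)) : G)

theorem psi_of (hS : IsExtraspecialCentralizerSetting z Q 12) (hψ : IsLeechModTwoIso Q e ψ) : Psi ψ := by
  obtain ⟨-, -, ⟨⟨hp, hF, hC⟩, hc⟩, hcard, -⟩ := hS
  obtain ⟨hadd, hsurj, hker, hinv⟩ := hψ
  haveI : Finite ↥Q := Nat.finite_of_card_ne_zero (by rw [hcard]; norm_num)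
  refine ⟨hc, fun a b => ?_, fun a => ?_, hadd, hsurj, hker, fun g => ?_⟩
  · rw [← hC, commutator_def]
    exact Subgroup.commutator_mem_commutator (Subgroup.mem_top a) (Subgroup.mem_top b)
  · haveI : Fact (Nat.Prime 2) := ⟨Nat.prime_two⟩
    rw [← hF, ← pow_two]
    exact Lib.PGroupFrattini.pow_mem_frattini hp a
  · obtain ⟨x, hx⟩ := e.surjective (QuotientGroup.mk g)
    obtain ⟨h, rfl⟩ := QuotientGroup.mk_surjective x
    exact ⟨MulAut.conjNormal h, fun v a ha => hinv h g hx.symm v a ha⟩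

/-- A squared norm is a multiple of sixteen. -/
theorem norm16 (v : ↥leechLattice) : (16 : ℤ) ∣ sqNorm (v : GolayPt → ℤ) := by
  obtain ⟨m, y, hm, hy, hs, hw⟩ := Lib.Leech.mem_iff.1 v.2
  have hc := Lib.Golay.card_cases (support_mem hw)
  rw [support_cast] at hc
  have e4 : (4 : ℤ) ∣ ∑ i, (y i ^ 2 - if ¬ (2 : ℤ) ∣ y i then 1 else 0) := Finset.dvd_sum fun i _ => by
    by_cases hi : (2 : ℤ) ∣ y i
    · obtain ⟨t, ht⟩ := hi
      rw [ht, if_neg (not_not.2 (dvd_mul_right 2 t))]; exact ⟨t ^ 2, by ring⟩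
    · obtain ⟨t, ht⟩ : ∃ t, y i = 2 * t + 1 := ⟨y i / 2, by omega⟩
      rw [if_pos hi, ht]; exact ⟨t ^ 2 + t, by ring⟩
  rw [Finset.sum_sub_distrib, Finset.sum_boole] at e4
  have es : ∑ i, (v : GolayPt → ℤ) i = 24 * m + 2 * ∑ i, y i := by
    rw [Finset.sum_congr rfl (fun i _ => hy i), Finset.sum_add_distrib, Finset.sum_const, ← Finset.mul_sum,
      nsmul_eq_mul, Finset.card_univ, show Fintype.card GolayPt = 24 from rfl]; rfl
  have en : sqNorm (v : GolayPt → ℤ) = 24 * (m * m) + 4 * m * (∑ i, y i) + 4 * ∑ i, y i ^ 2 := by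
    rw [sqNorm, Finset.sum_congr rfl (g := fun i => m * m + 4 * m * y i + 4 * y i ^ 2) (fun i _ => by rw [hy]; ring),
      Finset.sum_add_distrib, Finset.sum_add_distrib, Finset.sum_const, ← Finset.mul_sum, ← Finset.mul_sum,
      nsmul_eq_mul, Finset.card_univ, show Fintype.card GolayPt = 24 from rfl]; rfl
  rcases hm with rfl | rfl <;> omega

section Base

variable [Finite G] (hS : IsExtraspecialCentralizerSetting z Q 12)
include hS

theorem base : (IsLargeExtraspecial (Q.map (Subgroup.centralizer ({z} : Set G)).subtype)) ∧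
    ((Subgroup.center ↥(Q.map (Subgroup.centralizer ({z} : Set G)).subtype)).map
      (Q.map (Subgroup.centralizer ({z} : Set G)).subtype).subtype = Subgroup.zpowers z) ∧
    Nat.card ↥(Q.map (Subgroup.centralizer ({z} : Set G)).subtype) = 2 ^ 25 ∧
    (∀ a : ↥Q, a ∈ Subgroup.center ↥Q ↔ val a = 1 ∨ val a = z) ∧
    (∀ x, x ∈ Q.map (Subgroup.centralizer ({z} : Set G)).subtype ↔ ∃ a : ↥Q, val a = x) := by
  obtain ⟨hz, hgf, hE, hcard, g, ⟨hq, hgQ⟩, hgz⟩ := hS
  let η : ↥Q ≃* ↥(Q.map (Subgroup.centralizer ({z} : Set G)).subtype) := Q.equivMapOfInjective (Subgroup.centralizer ({z} : Set G)).subtype (Subgroup.subtype_injective _)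
  have hE' : IsExtraspecial 2 ↥(Q.map (Subgroup.centralizer ({z} : Set G)).subtype) := Lib.LargeExtra.isExtraspecial_equiv η hE
  have hcard' : Nat.card ↥(Q.map (Subgroup.centralizer ({z} : Set G)).subtype) = 2 ^ 25 := by rw [← Nat.card_congr η.toEquiv, hcard]
  obtain ⟨h1, h2, hzQ, hZ, -⟩ := Lib.LargeExtra.of_fstar hz (by rw [hgf]) hE'
  have hz1 : z ≠ 1 := fun e => by rw [e, orderOf_one] at hz; omega
  have hmem : ∀ x, x ∈ Q.map (Subgroup.centralizer ({z} : Set G)).subtype ↔ ∃ a : ↥Q, val a = x := fun x =>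
    ⟨fun ⟨a, ha, ea⟩ => ⟨⟨a, ha⟩, ea⟩, fun ⟨a, ea⟩ => ⟨a, a.2, ea⟩⟩
  refine ⟨large_of_conj hE' h1 h2 (by rw [hcard']; norm_num) hZ hz1 ⟨_, hgQ, rfl⟩ hgz, ?_, hcard', ?_, hmem⟩
  · classical
    ext x
    rw [hZ, mem_zpowers_iff_mem_range_orderOf, hz]
    simp [Finset.mem_image, Finset.range_add_one, eq_comm, or_comm]
  · intro a
    have hinj : Function.Injective (val (Q := Q)) := fun _ _ e => Subtype.ext (Subtype.ext e)
    have key : ∀ b : ↥(Q.map (Subgroup.centralizer ({z} : Set G)).subtype), b ∈ Subgroup.center ↥(Q.map (Subgroup.centralizer ({z} : Set G)).subtype) ↔ (b : G) = 1 ∨ (b : G) = z := fun b => by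
      rw [← hZ]
      exact ⟨fun h => ⟨b, h, rfl⟩, fun ⟨c, hc, ec⟩ => Subtype.ext ec ▸ hc⟩
    have h := key (η a)
    rw [Subgroup.mem_center_iff] at h ⊢
    refine ⟨fun ha => h.1 fun b => ?_, fun ha b => ?_⟩
    · obtain ⟨b, rfl⟩ := η.surjective b
      rw [← map_mul, ← map_mul, ha]
    · exact η.injective (by rw [map_mul, map_mul]; exact h.2 ha (η b))

/-- A conjugate in the subgroup gives a pair. -/
theorem pair {g : G} {a : ↥Q} (ha : g * z * g⁻¹ = val a) (hne : val a ≠ z) :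
    ∃ Qf, Pair Qf z (val a) ∧ Qf z = Q.map (Subgroup.centralizer ({z} : Set G)).subtype ∧
      Qf (val a) = (Q.map (Subgroup.centralizer ({z} : Set G)).subtype).map (MulAut.conj g).toMonoidHom := by
  obtain ⟨hL, hzp, -, -, hmem⟩ := base hS
  have hg : g ∉ Subgroup.centralizer ({z} : Set G) := fun hg => hne (by
    rw [← ha, Subgroup.mem_centralizer_singleton_iff.1 hg]; group)
  obtain ⟨h, e1, e2⟩ := pair_of _ hL z hzp hS.1 g hg ((hmem _).2 ⟨a, ha.symm⟩)
  rw [ha] at h e2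
  exact ⟨_, h, e1, e2⟩

theorem good : Singular.Good (Q.map (Subgroup.centralizer ({z} : Set G)).subtype) z := by
  obtain ⟨g, ⟨hq, hgQ⟩, hgz⟩ := hS.2.2.2.2
  obtain ⟨Qf, h, e1, -⟩ := pair hS (a := ⟨_, hgQ⟩) rfl hgz
  exact e1 ▸ h.goodz

/-- An element outside `Q` centralizing the pair. -/
theorem exists_outside {g : G} {a : ↥Q} (ha : g * z * g⁻¹ = val a) {Qf : G → Subgroup G} (h : Pair Qf z (val a))
    (e2 : Qf (val a) = (Q.map (Subgroup.centralizer ({z} : Set G)).subtype).map (MulAut.conj g).toMonoidHom) :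
    ∃ x ∈ Pair.B Qf (val a) z, x ∉ Qf z := by
  classical
  by_contra hno
  push Not at hno
  have hcard : Nat.card ↥(Qf (val a)) = 2 ^ 25 := by
    rw [e2, Subgroup.card_map_of_injective (MulAut.conj g).injective, (base hS).2.2.1]
  set y := val a
  have hBE : ∀ x ∈ Pair.B Qf y z, x ∈ Pair.E Qf z y := fun x hx => ⟨hno x hx, (h.symm.mem_B.1 hx).1⟩
  obtain ⟨q0, hq0, hq0z⟩ := h.symm.exists_q0
  have hdec : ∀ q ∈ Qf y, q ∈ Pair.E Qf z y ∨ q0⁻¹ * q ∈ Pair.E Qf z y := by
    intro q hq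
    rcases h.goody.comm q hq z h.memz with e | e
    · exact Or.inl (hBE q (h.symm.mem_B.2 ⟨hq, (Singular.comm_iff _ _).1 e⟩))
    · refine Or.inr (hBE _ (h.symm.mem_B.2 ⟨mul_mem (inv_mem hq0) hq, ?_⟩))
      have e' : q * z = y * z * q := by rw [← e]; group
      calc q0⁻¹ * q * z = q0⁻¹ * (y * z * q) := by rw [mul_assoc, e']
        _ = q0⁻¹ * (q0 * z * q0⁻¹) * q := by rw [hq0z]; group
        _ = _ := by group
  have hfix : ∀ e ∈ Pair.E Qf z y, q0 * e = e * q0 → e = 1 ∨ e = y := by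
    intro e he hc
    refine h.goody.cent e fun q hq => ?_
    rcases hdec q hq with hq' | hq'
    · exact h.E_comm he hq'
    · have h' := h.E_comm he hq'
      calc e * q = e * q0 * (q0⁻¹ * q) := by group
        _ = q0 * (e * (q0⁻¹ * q)) := by rw [← hc]; group
        _ = q0 * (q0⁻¹ * q * e) := by rw [h']
        _ = _ := by group
  have hy2 := h.goody.sq
  have hsmall : ∀ e ∈ Pair.E Qf z y, e = 1 ∨ e = y ∨ e = z ∨ e = z * y := by
    intro e he
    rcases h.goody.comm q0 hq0 e he.2 with c | c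
    · rcases hfix e he ((Singular.comm_iff _ _).1 c) with r | r <;> simp [r]
    · have hze : q0 * (z * e) = z * e * q0 := by
        have e1 : q0 * z = y * z * q0 := by rw [← hq0z]; group
        have e2 : q0 * e = y * e * q0 := by rw [← c]; group
        calc q0 * (z * e) = y * z * (q0 * e) := by rw [← mul_assoc, e1]; group
          _ = y * (z * y) * e * q0 := by rw [e2]; group
          _ = y * y * (z * e) * q0 := by rw [h.zy]; group
          _ = _ := by rw [hy2, one_mul]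
      rcases hfix _ (mul_mem h.z_mem_E he) hze with r | r
      · right; right; left
        exact (eq_inv_of_mul_eq_one_right r).trans (inv_eq_of_mul_eq_one_right h.goodz.sq)
      · right; right; right
        rw [← r, ← mul_assoc, h.goodz.sq, one_mul]
  let T : Finset G := {1, y, z, z * y, q0, q0 * y, q0 * z, q0 * (z * y)}
  have hsub : (Qf y : Set G) ⊆ (T : Set G) := by
    intro q hq
    rcases hdec q hq with hq' | hq'
    · rcases hsmall q hq' with r | r | r | r <;> simp [T, r]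
    · have hr : ∀ u, q0⁻¹ * q = u → q = q0 * u := fun u hu => by rw [← hu]; group
      rcases hsmall _ hq' with r | r | r | r <;> have := hr _ r <;> simp [T, this]
  have h8 := Set.ncard_le_ncard hsub T.finite_toSet
  rw [Set.ncard_coe_finset, ← Nat.card_coe_set_eq] at h8
  have : T.card ≤ 8 := by
    refine (Finset.card_insert_le _ _).trans (Nat.succ_le_succ ?_)
    refine (Finset.card_insert_le _ _).trans (Nat.succ_le_succ ?_)
    refine (Finset.card_insert_le _ _).trans (Nat.succ_le_succ ?_)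
    refine (Finset.card_insert_le _ _).trans (Nat.succ_le_succ ?_)
    refine (Finset.card_insert_le _ _).trans (Nat.succ_le_succ ?_)
    refine (Finset.card_insert_le _ _).trans (Nat.succ_le_succ ?_)
    exact Finset.card_le_two
  change Nat.card ↥(Qf y) ≤ _ at h8
  rw [hcard] at h8
  omega

end Base

section Classes

variable [Finite G] (hS : IsExtraspecialCentralizerSetting z Q 12) (hψ : IsLeechModTwoIso Q e ψ)
include hS hψ

theorem qform_eq (v : ↥leechLattice) :
    (psi_of hS hψ).qform v = ((sqNorm (v : GolayPt → ℤ) / 16 : ℤ) : ZMod 2) := by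
  set S := psi_of hS hψ
  refine Cfsg.Agent.S5552.result S.qform (fun v w => ?_) (fun u v w => ?_) S.qform_inv ?_ v
  · rw [Psi.qform, Psi.qform, S.congr_two _ v w rfl]
  · rw [S.qform_add (u + v) w, S.qform_add u v, S.qform_add u w, S.qform_add v w, S.bform_symm (u + v) w,
      S.bform_add, S.bform_symm w u, S.bform_symm w v]
    ring
  · by_contra hall
    push Not at hall
    have hsq : ∀ a : ↥Q, a * a = 1 := by
      intro a
      obtain ⟨v, hv⟩ := S.surj (QuotientGroup.mk a)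
      have := hall v
      rwa [Psi.qform, hv, sqF_mk S.card_center, chi_eq_zero] at this
    have htop : Subgroup.center ↥Q = ⊤ := by
      refine eq_top_iff.2 fun a _ => Subgroup.mem_center_iff.2 fun b => ?_
      have ha := inv_eq_of_mul_eq_one_right (hsq a)
      have hb := inv_eq_of_mul_eq_one_right (hsq b)
      have hba := inv_eq_of_mul_eq_one_right (hsq (b * a))
      rw [← hba, mul_inv_rev, ha, hb]
    have hc := S.card_center
    rw [htop, Subgroup.card_top, hS.2.2.2.1] at hc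
    norm_num at hc

/-- A non-central involution corresponds to a vector of norm 32 or 64. -/
theorem short_rep {a : ↥Q} (h2 : val a * val a = 1) (h1 : val a ≠ 1) (hz : val a ≠ z) :
    ∃ v : ↥leechLattice, (sqNorm (v : GolayPt → ℤ) = 32 ∨ sqNorm (v : GolayPt → ℤ) = 64) ∧ ψ v = QuotientGroup.mk a := by
  set S := psi_of hS hψ
  obtain ⟨v, hv⟩ := S.surj (QuotientGroup.mk a)
  obtain ⟨y, hy, hyn, w, hw, ew⟩ := covering (v : GolayPt → ℤ) v.2
  have hvy : ψ ⟨y, hy⟩ = QuotientGroup.mk a := by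
    rw [← hv]
    refine (S.congr_two _ _ ⟨w, hw⟩ (Subtype.ext ?_)).symm
    show (v : GolayPt → ℤ) = y + (w + w)
    rw [← two_nsmul, ← ew]; abel
  refine ⟨⟨y, hy⟩, ?_, hvy⟩
  have hq := qform_eq hS hψ ⟨y, hy⟩
  have ha : a * a = 1 := Subtype.ext (Subtype.ext h2)
  rw [Psi.qform, hvy, sqF_mk S.card_center, ha, chi_eq_zero.2 rfl, eq_comm, ZMod.intCast_zmod_eq_zero_iff_dvd] at hq
  have hy0 : y ≠ 0 := by
    intro e0
    have h0 : (⟨y, hy⟩ : ↥leechLattice) = 0 := Subtype.ext e0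
    rw [h0, S.map_zero, eq_comm, QuotientGroup.eq_one_iff, (base hS).2.2.2.1] at hvy
    exact hvy.elim h1 hz
  have := min_norm hy hy0
  have h16 := norm16 ⟨y, hy⟩
  simp only at hq h16 ⊢
  omega

/-- Lattice isometries lift to the centralizer. -/
theorem lift (g : ↥Co0) : ∃ h : Subgroup.centralizer ({z} : Set G), (QuotientGroup.mk g : Spor.Co1) = e (QuotientGroup.mk h) ∧
    ∀ v w (a b : ↥Q), ψ v = QuotientGroup.mk a → ψ w = QuotientGroup.mk b → ψ (g • v) = ψ w →
      (h : G) * val a * (h : G)⁻¹ = val b ∨ (h : G) * val a * (h : G)⁻¹ = z * val b := by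
  obtain ⟨x, hx⟩ := e.surjective (QuotientGroup.mk g)
  obtain ⟨h, rfl⟩ := QuotientGroup.mk_surjective x
  refine ⟨h, hx.symm, fun v w a b hv hw hvw => ?_⟩
  rw [hψ.2.2.2 h g hx.symm v a hv, hw, eq_comm, QuotientGroup.eq, (base hS).2.2.2.1] at hvw
  let c : G := (h : G) * val a * (h : G)⁻¹
  have hvw' : (val b)⁻¹ * c = 1 ∨ (val b)⁻¹ * c = z := by
    rcases hvw with r | r
    · exact Or.inl r
    · exact Or.inr r
  rcases hvw' with r | r
  · exact Or.inl (inv_mul_eq_one.1 r).symm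
  · right
    have hzb : val b * z = z * val b := Subgroup.mem_centralizer_singleton_iff.1 (b : Subgroup.centralizer ({z} : Set G)).2
    show c = _
    calc c = val b * ((val b)⁻¹ * c) := by group
      _ = val b * z := by rw [r]
      _ = _ := hzb

/-- The same, with the sign removed by an element of `Q`. -/
theorem lift_eq {g : ↥Co0} {v w : ↥leechLattice} {a b : ↥Q} (hv : ψ v = QuotientGroup.mk a)
    (hw : ψ w = QuotientGroup.mk b) (hvw : ψ (g • v) = ψ w) (hb1 : val b ≠ 1) (hbz : val b ≠ z) :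
    ∃ h : Subgroup.centralizer ({z} : Set G), (QuotientGroup.mk g : Spor.Co1) = e (QuotientGroup.mk h) ∧
      (h : G) * val a * (h : G)⁻¹ = val b := by
  obtain ⟨h, hh, hlift⟩ := lift hS hψ g
  rcases hlift v w a b hv hw hvw with r | r
  · exact ⟨h, hh, r⟩
  obtain ⟨q, hq, hqb⟩ := Singular.exists_mover (good hS) (((base hS).2.2.2.2 _).2 ⟨b, rfl⟩) hb1 hbz
  obtain ⟨q, rfl⟩ := ((base hS).2.2.2.2 q).1 hq
  refine ⟨(q : Subgroup.centralizer ({z} : Set G))⁻¹ * h, ?_, ?_⟩
  · rw [hh, QuotientGroup.mk_mul, QuotientGroup.mk_inv, (QuotientGroup.eq_one_iff _).2 q.2, inv_one, one_mul]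
  · show (val q)⁻¹ * (h : G) * val a * ((val q)⁻¹ * (h : G))⁻¹ = val b
    calc (val q)⁻¹ * (h : G) * val a * ((val q)⁻¹ * (h : G))⁻¹ = (val q)⁻¹ * ((h : G) * val a * (h : G)⁻¹) * val q := by group
      _ = (val q)⁻¹ * (val q * val b * (val q)⁻¹) * val q := by rw [r, hqb]
      _ = _ := by group

/-- Vectors of minimal norm do not give conjugates of the central involution. -/
theorem not_min {g : G} {a : ↥Q} (ha : g * z * g⁻¹ = val a) (hne : val a ≠ z) {v : ↥leechLattice}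
    (hv : sqNorm (v : GolayPt → ℤ) = 32) (hva : ψ v = QuotientGroup.mk a) : False := by
  classical
  haveI : Finite ↥Co0 := Nat.finite_of_card_ne_zero (by rw [card_Co0]; norm_num)
  obtain ⟨Qf, h, e1, e2⟩ := pair hS ha hne
  obtain ⟨-, -, -, hcen, hmem⟩ := base hS
  have hRC : Pair.R Qf z (val a) ≤ (Subgroup.centralizer ({z} : Set G)) := fun x hx => Subgroup.mem_centralizer_singleton_iff.2
    (h.R_cent_V hx (Subgroup.subset_closure (by simp)))
  let W : Subgroup ((Subgroup.centralizer ({z} : Set G)) ⧸ Q) := ((Pair.R Qf z (val a)).subgroupOf (Subgroup.centralizer ({z} : Set G))).map (QuotientGroup.mk' Q)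
  have hW : IsPGroup 2 ↥(W.map e.toMonoidHom) :=
    ((h.R_isPGroup.of_equiv (Subgroup.subgroupOfEquivOfLe hRC).symm).map _).map _
  let N : Subgroup ↥Co0 := MulAction.stabilizer ↥Co0 v ⊓ (W.map e.toMonoidHom).comap (QuotientGroup.mk' (Subgroup.center ↥Co0))
  have hv0 : ((v : ↥leechLattice) : GolayPt → ℤ) ≠ 0 := fun e0 => by rw [e0] at hv; simp [sqNorm] at hv
  have hneg : negCo • v ≠ v := fun e0 => hv0 (funext fun i => by
    have := congrArg (fun t : ↥leechLattice => (t : GolayPt → ℤ) i) e0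
    simp only [negCo_smul, AddSubgroup.coe_neg, Pi.neg_apply] at this
    show (v : GolayPt → ℤ) i = 0
    omega)
  have hNp : IsPGroup 2 ↥N := by
    rintro ⟨n, hn⟩
    obtain ⟨k, hk⟩ := hW ⟨_, hn.2⟩
    refine ⟨k, Subtype.ext ?_⟩
    have hc : n ^ 2 ^ k ∈ Subgroup.center ↥Co0 := by
      rw [← QuotientGroup.eq_one_iff, QuotientGroup.mk_pow]
      exact congrArg Subtype.val hk
    rcases center_cases hc with r | r
    · exact r
    · exact absurd (show negCo • v = v by rw [← r]; exact pow_mem hn.1 (2 ^ k)) hneg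
  have hb1 : val a ≠ 1 := fun e0 => h.goody.ne e0
  have hnorm : ∀ k ∈ MulAction.stabilizer ↥Co0 v, ∀ n ∈ N, k * n * k⁻¹ ∈ N := by
    intro k hk n hn
    refine ⟨Subgroup.mul_mem _ (Subgroup.mul_mem _ hk hn.1) (Subgroup.inv_mem _ hk), ?_⟩
    obtain ⟨c, hc, hca⟩ := lift_eq hS hψ hva hva (congrArg ψ hk) hb1 hne
    obtain ⟨_, ⟨r, hr, rfl⟩, hr'⟩ := hn.2
    have hcz : (c : G) * z * (c : G)⁻¹ = z := mul_inv_eq_iff_eq_mul.2 (Subgroup.mem_centralizer_singleton_iff.1 c.2)
    have hcB : ∀ p q, (c : G) * p * (c : G)⁻¹ = p → (c : G) * q * (c : G)⁻¹ = q → ∀ u ∈ Qf p, u * q = q * u →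
        (c : G) * u * (c : G)⁻¹ ∈ Qf p ⊓ Subgroup.centralizer ({q} : Set G) := by
      intro p q hp hq u hu huq
      refine ⟨hp ▸ h.conj _ _ _ hu, Subgroup.mem_centralizer_singleton_iff.2 ?_⟩
      conv_lhs => rw [← hq]
      conv_rhs => rw [← hq]
      calc (c : G) * u * (c : G)⁻¹ * ((c : G) * q * (c : G)⁻¹) = (c : G) * (u * q) * (c : G)⁻¹ := by group
        _ = _ := by rw [huq]; group
    have hcR : (c : G) * (r : G) * (c : G)⁻¹ ∈ Pair.R Qf z (val a) := by
      obtain ⟨u, hu, w, hw, huw⟩ := h.mem_R hr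
      rw [show (r : G) = u * w from huw, show (c : G) * (u * w) * (c : G)⁻¹ = ((c : G) * u * (c : G)⁻¹) * ((c : G) * w * (c : G)⁻¹) by group]
      exact mul_mem (Subgroup.mem_sup_left (hcB _ _ hca hcz u (h.symm.mem_B.1 hu).1 (h.symm.mem_B.1 hu).2))
        (Subgroup.mem_sup_right (hcB _ _ hcz hca w (h.mem_B.1 hw).1 (h.mem_B.1 hw).2))
    refine ⟨_, ⟨c * r * c⁻¹, hcR, rfl⟩, ?_⟩
    simp only [QuotientGroup.mk'_apply, MulEquiv.coe_toMonoidHom] at hr' ⊢
    simp only [QuotientGroup.mk_mul, QuotientGroup.mk_inv, map_mul, map_inv, ← hc, hr']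
  -- the image is not trivial
  obtain ⟨x, hx, hxQ⟩ := exists_outside hS ha h e2
  have hxR : x ∈ Pair.R Qf z (val a) := Subgroup.mem_sup_left hx
  have hxa : x * val a * x⁻¹ = val a := mul_inv_eq_iff_eq_mul.2 (h.goody.le x (h.symm.mem_B.1 hx).1)
  obtain ⟨g0, hg0⟩ := QuotientGroup.mk_surjective (e (QuotientGroup.mk (⟨x, hRC hxR⟩ : ↥(Subgroup.centralizer ({z} : Set G)))))
  have hg0v : ψ (g0 • v) = ψ v := by
    rw [hψ.2.2.2 ⟨x, hRC hxR⟩ g0 hg0 v a hva, hva]
    exact congrArg _ (Subtype.ext (Subtype.ext hxa))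
  obtain ⟨n, hn, hnm⟩ : ∃ n, n • v = v ∧ (QuotientGroup.mk n : Spor.Co1) = QuotientGroup.mk g0 := by
    have hker : ψ (g0 • v + -v) = 1 := by
      rw [(psi_of hS hψ).add, (psi_of hS hψ).map_neg, hg0v, hva, ← QuotientGroup.mk_mul, QuotientGroup.eq_one_iff]
      exact (psi_of hS hψ).sq a
    obtain ⟨w, hw⟩ := (hψ.2.2.1 _).1 hker
    have hn' : sqNorm ((g0 • v : ↥leechLattice) : GolayPt → ℤ) = 32 := (Same.sqNorm_eq ⟨g0, rfl⟩).trans hv
    have hd : ((g0 • v : ↥leechLattice) : GolayPt → ℤ) - (v : GolayPt → ℤ) = 2 • (w : GolayPt → ℤ) := by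
      have := congrArg (Subtype.val : ↥leechLattice → GolayPt → ℤ) hw
      simp only [AddSubgroup.coe_add, AddSubgroup.coe_neg] at this
      rw [two_nsmul, ← this]; abel
    rcases short_congr v.2 (by omega) (by omega) ⟨_, w.2, hd⟩ with r | r | r
    · exact ⟨g0, Subtype.ext r, rfl⟩
    · refine ⟨negCo * g0, ?_, ?_⟩
      · rw [mul_smul, negCo_smul]
        exact Subtype.ext (by rw [AddSubgroup.coe_neg, r, neg_neg])
      · rw [QuotientGroup.mk_mul, (QuotientGroup.eq_one_iff negCo).2, one_mul]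
        exact Subgroup.mem_center_iff.2 fun k => co_ext fun i => by rw [mul_smul, mul_smul, negCo_smul, negCo_smul, smul_neg']
    · omega
  have hnN : n ∈ N := ⟨hn, ⟨_, ⟨⟨x, hRC hxR⟩, hxR, rfl⟩, by
    show e _ = QuotientGroup.mk n
    rw [hnm, hg0]; rfl⟩⟩
  have hn1 : n ≠ 1 := by
    intro r
    rw [r, QuotientGroup.mk_one, hg0, eq_comm] at hnm
    have := (QuotientGroup.eq_one_iff _).1 (e.injective (hnm.trans (map_one e).symm))
    exact hxQ (e1 ▸ (hmem x).2 ⟨⟨_, this⟩, rfl⟩)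
  obtain ⟨k, hk⟩ := trans_min hv uVec_facts.1
  have hbot := two_normal_bot (N.map (MulAut.conj k).toMonoidHom)
    (by
      rintro _ ⟨m, hm, rfl⟩
      show (k * m * k⁻¹) • uVec = uVec
      rw [← hk, mul_smul, mul_smul, inv_smul_smul, show m • v = v from hm.1])
    (hNp.map _)
    (by
      rintro j hj _ ⟨m, hm, rfl⟩
      refine ⟨(k⁻¹ * j * k) * m * (k⁻¹ * j * k)⁻¹, hnorm _ ?_ m hm, by simp [mul_assoc]⟩
      show (k⁻¹ * j * k) • v = v
      rw [mul_smul, mul_smul, hk, show j • uVec = uVec from hj, ← hk, inv_smul_smul])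
  have : k * n * k⁻¹ ∈ N.map (MulAut.conj k).toMonoidHom := ⟨n, hnN, rfl⟩
  rw [hbot, Subgroup.mem_bot, conj_eq_one_iff] at this
  exact hn1 this

/-- A conjugate of the central involution corresponds to a vector of norm 64. -/
theorem conj_rep {g : G} {a : ↥Q} (ha : g * z * g⁻¹ = val a) (hne : val a ≠ z) :
    ∃ v : ↥leechLattice, sqNorm (v : GolayPt → ℤ) = 64 ∧ ψ v = QuotientGroup.mk a := by
  obtain ⟨Qf, h, -, -⟩ := pair hS ha hne
  obtain ⟨v, hv | hv, hva⟩ := short_rep hS hψ h.goody.sq h.goody.ne hne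
  · exact (not_min hS hψ ha hne hv hva).elim
  · exact ⟨v, hv, hva⟩

/-- Elements with norm 64 vectors are conjugate. -/
theorem conj_four {v w : ↥leechLattice} {a b : ↥Q} (hv : sqNorm (v : GolayPt → ℤ) = 64) (hw : sqNorm (w : GolayPt → ℤ) = 64)
    (hva : ψ v = QuotientGroup.mk a) (hwb : ψ w = QuotientGroup.mk b) (hb1 : val b ≠ 1) (hbz : val b ≠ z) :
    ∃ h : Subgroup.centralizer ({z} : Set G), (h : G) * val a * (h : G)⁻¹ = val b := by
  obtain ⟨g1, h1⟩ := cross v hv
  obtain ⟨g2, h2⟩ := cross w hw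
  obtain ⟨u, hu⟩ := (h1.trans h2.symm).smul g2⁻¹
  rw [inv_smul_smul, ← mul_smul] at hu
  obtain ⟨h, -, hh⟩ := lift_eq hS hψ hva hwb ((psi_of hS hψ).congr_two _ w u (by rw [← hu]; abel)) hb1 hbz
  exact ⟨h, hh⟩

theorem four_ne {v : ↥leechLattice} {a : ↥Q} (hv : sqNorm (v : GolayPt → ℤ) = 64) (hva : ψ v = QuotientGroup.mk a) :
    val a ≠ 1 ∧ val a ≠ z := by
  by_contra hcon
  have hac : val a = 1 ∨ val a = z := by tauto
  obtain ⟨g, hg⟩ := cross v hv
  obtain ⟨w, hw⟩ := (hψ.2.2.1 v).1 (by rw [hva, QuotientGroup.eq_one_iff, (base hS).2.2.2.1]; exact hac)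
  have hcong : Cong v 0 := ⟨w, by rw [sub_zero, hw]⟩
  obtain ⟨u, hu⟩ := hg.symm.trans (hcong.smul g)
  rw [show g • (0 : ↥leechLattice) = 0 from (coHom g).map_zero, sub_zero] at hu
  have hu0 : (u : GolayPt → ℤ) ≠ 0 := fun e0 => by
    have h0 := congrArg (fun t : ↥leechLattice => (t : GolayPt → ℤ) none) hu
    simp only [AddSubgroup.coe_add, Pi.add_apply, coe_e8, Pi.single_eq_same, e0, Pi.zero_apply] at h0
    omega
  have h32 := min_norm u.2 hu0
  have h64 := sqNorm_e8 none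
  have hdd : sqNorm ((u + u : ↥leechLattice) : GolayPt → ℤ) = 4 * sqNorm (u : GolayPt → ℤ) := by
    simp only [sqNorm, Finset.mul_sum, AddSubgroup.coe_add, Pi.add_apply]
    exact Finset.sum_congr rfl fun i _ => by ring
  rw [← hu] at hdd
  omega

/-- Elements with norm 64 vectors are conjugates of the central involution. -/
theorem four_isConj {v : ↥leechLattice} {a : ↥Q} (hv : sqNorm (v : GolayPt → ℤ) = 64) (hva : ψ v = QuotientGroup.mk a) :
    IsConj z (val a) ∧ val a ≠ z := by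
  obtain ⟨g, ⟨hq, hgQ⟩, hgz⟩ := hS.2.2.2.2
  obtain ⟨w, hw, hwb⟩ := conj_rep hS hψ (a := ⟨_, hgQ⟩) rfl hgz
  obtain ⟨h1, h2⟩ := four_ne hS hψ hv hva
  obtain ⟨h, hh⟩ := conj_four hS hψ hw hv hwb hva h1 h2
  exact ⟨isConj_iff.2 ⟨(h : G) * g, by rw [← hh]; show _ = (h : G) * (g * z * g⁻¹) * (h : G)⁻¹; group⟩, h2⟩

end Classes

end Cfsg.Agent.Lib.Monster
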