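import Cfsg.Prelude.Def_MonsterType
import Cfsg.Agent.Lib.Leech.Functional
import Cfsg.Agent.Lib.PGroupFrattini

/-!
The quadratic form on `Q / Z(Q)` in the Monster-type setting.
-/

namespace Cfsg.Agent.Lib.Monster

open Cfsg

variable {P : Type*} [Group P]

open Classical in
/-- Nontriviality, valued in `ZMod 2`. -/
noncomputable def chi (x : P) : ZMod 2 := if x = 1 then 0 else 1

theorem chi_eq_zero {x : P} : chi x = 0 ↔ x = 1 := by
  unfold chi; split_ifs with h <;> simp [h]

theorem chi_map {P' : Type*} [Group P'] (f : P ≃* P') (x : P) : chi (f x) = chi x := by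
  unfold chi
  by_cases h : x = 1
  · simp [h]
  · have : f x ≠ 1 := fun e => h (f.injective (e.trans (map_one f).symm))
    simp [h, this]

theorem center_sq (hc : Nat.card (Subgroup.center P) = 2) {x : P} (hx : x ∈ Subgroup.center P) : x * x = 1 := by
  haveI : Finite (Subgroup.center P) := Nat.finite_of_card_ne_zero (by omega)
  have h := pow_card_eq_one' (x := (⟨x, hx⟩ : Subgroup.center P))
  rw [hc, pow_two] at h
  exact congrArg Subtype.val h

theorem chi_mul (hc : Nat.card (Subgroup.center P) = 2) {x y : P} (hx : x ∈ Subgroup.center P)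
    (hy : y ∈ Subgroup.center P) : chi (x * y) = chi x + chi y := by
  unfold chi
  by_cases h1 : x = 1
  · rw [h1, one_mul]; simp
  by_cases h2 : y = 1
  · rw [h2, mul_one]; simp
  have hxy : x = y := by
    obtain ⟨w, -, hu⟩ := (Nat.card_eq_two_iff' (1 : Subgroup.center P)).1 hc
    exact congrArg Subtype.val ((hu ⟨x, hx⟩ fun e => h1 (congrArg Subtype.val e)).trans
      (hu ⟨y, hy⟩ fun e => h2 (congrArg Subtype.val e)).symm)
  subst hxy
  rw [if_neg h1, if_pos (center_sq hc hx)]
  decide

/-- The squaring form at a class. -/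
noncomputable def sqF (x : P ⧸ Subgroup.center P) : ZMod 2 := chi (x.out * x.out)

/-- The commutator form at two classes. -/
noncomputable def commF (x y : P ⧸ Subgroup.center P) : ZMod 2 := chi (x.out * y.out * x.out⁻¹ * y.out⁻¹)

theorem out_eq (a : P) : ∃ c ∈ Subgroup.center P, (QuotientGroup.mk a : P ⧸ Subgroup.center P).out = a * c := by
  obtain ⟨c, hc⟩ := QuotientGroup.mk_out_eq_mul (Subgroup.center P) a
  exact ⟨c, c.2, hc⟩

theorem sqF_mk (hc : Nat.card (Subgroup.center P) = 2) (a : P) :
    sqF (QuotientGroup.mk a : P ⧸ Subgroup.center P) = chi (a * a) := by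
  obtain ⟨c, hc', e⟩ := out_eq a
  rw [sqF, e]
  congr 1
  calc a * c * (a * c) = a * (c * a) * c := by group
    _ = a * (a * c) * c := by rw [(Subgroup.mem_center_iff.1 hc' a)]
    _ = a * a * (c * c) := by group
    _ = a * a := by rw [center_sq hc hc', mul_one]

theorem commF_mk (a b : P) :
    commF (QuotientGroup.mk a : P ⧸ Subgroup.center P) (QuotientGroup.mk b) = chi (a * b * a⁻¹ * b⁻¹) := by
  obtain ⟨c, hc, e⟩ := out_eq a
  obtain ⟨d, hd, e'⟩ := out_eq b
  rw [commF, e, e']
  congr 1
  have h1 : c * (b * d) = (b * d) * c := (Subgroup.mem_center_iff.1 hc _).symm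
  have h2 : d * a⁻¹ = a⁻¹ * d := (Subgroup.mem_center_iff.1 hd _).symm
  calc a * c * (b * d) * (a * c)⁻¹ * (b * d)⁻¹ = a * (c * (b * d)) * c⁻¹ * a⁻¹ * d⁻¹ * b⁻¹ := by group
    _ = a * b * (d * a⁻¹) * d⁻¹ * b⁻¹ := by rw [h1]; group
    _ = a * b * a⁻¹ * b⁻¹ := by rw [h2]; group

variable (hc : Nat.card (Subgroup.center P) = 2) (hcomm : ∀ a b : P, a * b * a⁻¹ * b⁻¹ ∈ Subgroup.center P)
  (hsq : ∀ a : P, a * a ∈ Subgroup.center P)
include hc hcomm

theorem commF_mul_right (x y w : P ⧸ Subgroup.center P) : commF x (y * w) = commF x y + commF x w := by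
  induction x using QuotientGroup.induction_on with
  | _ a => induction y using QuotientGroup.induction_on with
    | _ b => induction w using QuotientGroup.induction_on with
      | _ d =>
        rw [← QuotientGroup.mk_mul, commF_mk, commF_mk, commF_mk, ← chi_mul hc (hcomm a b) (hcomm a d)]
        congr 1
        have := Subgroup.mem_center_iff.1 (hcomm a d) b
        calc a * (b * d) * a⁻¹ * (b * d)⁻¹ = a * b * a⁻¹ * (a * d * a⁻¹ * d⁻¹) * b⁻¹ := by group
          _ = (a * b * a⁻¹ * b⁻¹) * (b * (a * d * a⁻¹ * d⁻¹)) * b⁻¹ := by group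
          _ = _ := by rw [this]; group

theorem commF_symm (x y : P ⧸ Subgroup.center P) : commF x y = commF y x := by
  induction x using QuotientGroup.induction_on with
  | _ a => induction y using QuotientGroup.induction_on with
    | _ b =>
      rw [commF_mk, commF_mk]
      congr 1
      rw [eq_comm, show b * a * b⁻¹ * a⁻¹ = (a * b * a⁻¹ * b⁻¹)⁻¹ by group, inv_eq_iff_mul_eq_one, center_sq hc (hcomm a b)]

include hsq in
theorem sqF_mul (x y : P ⧸ Subgroup.center P) : sqF (x * y) = sqF x + sqF y + commF x y := by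
  induction x using QuotientGroup.induction_on with
  | _ a => induction y using QuotientGroup.induction_on with
    | _ b =>
      rw [← QuotientGroup.mk_mul, sqF_mk hc, sqF_mk hc, sqF_mk hc, commF_mk, ← chi_mul hc (hsq a) (hsq b),
        ← chi_mul hc (mul_mem (hsq a) (hsq b)) (hcomm a b)]
      congr 1
      have h := Subgroup.mem_center_iff.1 (hcomm b a) a
      have hk : b * a * b⁻¹ * a⁻¹ = a * b * a⁻¹ * b⁻¹ := by
        rw [show b * a * b⁻¹ * a⁻¹ = (a * b * a⁻¹ * b⁻¹)⁻¹ by group, inv_eq_iff_mul_eq_one, center_sq hc (hcomm a b)]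
      calc a * b * (a * b) = a * (b * a * b⁻¹ * a⁻¹) * a * b * b := by group
        _ = (b * a * b⁻¹ * a⁻¹) * a * a * b * b := by rw [h]
        _ = (b * a * b⁻¹ * a⁻¹) * (a * a * (b * b)) := by group
        _ = (a * a * (b * b)) * (b * a * b⁻¹ * a⁻¹) := (Subgroup.mem_center_iff.1 (hcomm b a) _).symm
        _ = _ := by rw [hk]

end Cfsg.Agent.Lib.Monster
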