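import Cfsg.Agent.Lib.Monster.Meet
import Cfsg.Agent.Lib.Leech.Four

/-!
Non-conjugate involutions in the meet, and conjugates of the central involution inside the centralizer of such an involution.
-/

set_option autoImplicit false

namespace Cfsg.Agent.Lib.Monster

open Cfsg Golay Lib.Leech Lib.LargeExtra Cfsg.Agent.S5408
open scoped Pointwise

variable {G : Type*} [Group G] [Finite G] {z : G} {Q : Subgroup (Subgroup.centralizer ({z} : Set G))} [Q.Normal]
  {e : (Subgroup.centralizer ({z} : Set G)) ⧸ Q ≃* Spor.Co1} {ψ : ↥leechLattice → ↥Q ⧸ Subgroup.center ↥Q}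
  (hS : IsExtraspecialCentralizerSetting z Q 12) (hψ : IsLeechModTwoIso Q e ψ)
include hS hψ

/-- Elements of minimal vectors. -/
theorem min_not_conj {w : ↥leechLattice} {b : ↥Q} (hw : sqNorm (w : GolayPt → ℤ) = 32) (hwb : ψ w = QuotientGroup.mk b) :
    val b ≠ 1 ∧ val b ≠ z ∧ ¬ IsConj z (val b) := by
  have h : ¬ (val b = 1 ∨ val b = z) := fun hc => by
    rw [← (base hS).2.2.2.1, ← QuotientGroup.eq_one_iff, ← hwb] at hc
    obtain ⟨u, hu⟩ := (hψ.2.2.1 w).1 hc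
    have hdd : sqNorm ((u + u : ↥leechLattice) : GolayPt → ℤ) = 4 * sqNorm (u : GolayPt → ℤ) := by
      simp only [sqNorm, Finset.mul_sum, AddSubgroup.coe_add, Pi.add_apply]
      exact Finset.sum_congr rfl fun i _ => by ring
    rw [← hu, hw] at hdd
    have hu0 : (u : GolayPt → ℤ) ≠ 0 := fun e0 => by rw [e0] at hdd; simp [sqNorm] at hdd
    have := min_norm u.2 hu0
    omega
  push Not at h
  refine ⟨h.1, h.2, fun hc => ?_⟩
  obtain ⟨g, hg⟩ := isConj_iff.1 hc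
  exact not_min hS hψ hg h.2 hw hwb

/-- A non-conjugate involution corresponds to a minimal vector. -/
theorem min_rep {b : ↥Q} (h2 : val b * val b = 1) (h1 : val b ≠ 1) (hnc : ¬ IsConj z (val b)) :
    ∃ w : ↥leechLattice, sqNorm (w : GolayPt → ℤ) = 32 ∧ ψ w = QuotientGroup.mk b := by
  obtain ⟨w, hw | hw, hwb⟩ := short_rep hS hψ h2 h1 (fun e0 => hnc (by rw [e0]))
  · exact ⟨w, hw, hwb⟩
  · exact absurd (four_isConj hS hψ hw hwb).1 hnc

/-- The meet contains a minimal class. -/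
theorem frame_in_meet {g : G} {a : ↥Q} (ha : g * z * g⁻¹ = val a) (hne : val a ≠ z) :
    ∃ (w : ↥leechLattice) (b : ↥Q), sqNorm (w : GolayPt → ℤ) = 32 ∧ ψ w = QuotientGroup.mk b ∧
      g⁻¹ * val b * g ∈ Q.map (Subgroup.centralizer ({z} : Set G)).subtype := by
  classical
  obtain ⟨v, hv, hva⟩ := conj_rep hS hψ ha hne
  obtain ⟨k, hk⟩ := cross v hv
  obtain ⟨hcardM, -, Φ, hΦ, -, hflE, -⟩ := meet_at hS hψ ha hne hv hva hk _ _ rfl rfl
  obtain ⟨Qf, h, e1, e2⟩ := pair hS ha hne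
  have S := psi_of hS hψ
  obtain ⟨-, -, -, hcen, hmem⟩ := base hS
  rw [← e2] at hcardM hflE
  rw [← e1] at hcardM
  -- classes of the meet
  let T : ↥Kev → ↥Q ⧸ Subgroup.center ↥Q := fun y => ψ (k⁻¹ • four y)
  have hTcongr : ∀ y x : ↥leechLattice, Cong (k • x) y → ψ x = ψ (k⁻¹ • y) := fun y x hc => by
    obtain ⟨u, hu⟩ := hc.smul k⁻¹
    rw [inv_smul_smul] at hu
    exact S.congr_two _ _ u (by rw [← hu]; abel)
  have hkv : ψ (k⁻¹ • e8 none) = ψ v := (hTcongr _ _ hk).symm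
  have hmeet : ∀ b : ↥Q, val b ∈ Qf z ⊓ Qf (val a) → ∃ y, T y = QuotientGroup.mk b := by
    intro b hb
    obtain ⟨x, hx⟩ := S.surj (QuotientGroup.mk b)
    have hfix : ∀ (c : Finset GolayPt) (hc : c ∈ codeSets),
        Cong (flipCo c hc • k • x) (k • x) ∨ Cong (flipCo c hc • k • x) (k • x + e8 none) := by
      intro c hc
      have hf : flipCo c hc ∈ flips := fun i => by
        rw [flip_e8]
        split_ifs
        · exact Or.inr rfl
        · exact Or.inl rfl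
      have hin : Φ ⟨_, flips_le hf⟩ ∈ (flips.subgroupOf (MulAction.stabilizer ↥Co0 cross0)).map Φ := ⟨_, hf, rfl⟩
      rw [hflE] at hin
      obtain ⟨u, hu, hu'⟩ := hin
      have he := (hΦ ⟨_, flips_le hf⟩).symm
      rw [← hu'] at he
      have hψu := hψ.2.2.2 u _ he x b hx
      let bu : ↥Q := ⟨u * b * u⁻¹, (inferInstance : Q.Normal).conj_mem (b : Subgroup.centralizer ({z} : Set G)) b.2 u⟩
      have key : ∀ y : ↥leechLattice, ψ ((k⁻¹ * flipCo c hc * k) • x) = ψ y →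
          Cong (flipCo c hc • k • x) (k • y) := fun y hy => by
        obtain ⟨r, hr⟩ := (hψ.2.2.1 ((k⁻¹ * flipCo c hc * k) • x + -y)).1 (by
          rw [S.add, S.map_neg, hy, ← S.add]; exact (hψ.2.2.1 _).2 ⟨y, rfl⟩)
        have h1 : Cong ((k⁻¹ * flipCo c hc * k) • x) y := ⟨r, by rw [sub_eq_add_neg, hr]⟩
        have h2 := h1.smul k
        rwa [mul_smul, mul_smul, smul_inv_smul] at h2
      rcases h.goody.comm (u : G) hu.1 (val b) hb.2 with r | r
      · refine Or.inl (key x ?_)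
        rw [hψu, hx]
        exact congrArg _ (Subtype.ext (Subtype.ext (mul_inv_eq_one.1 r)))
      · refine Or.inr ?_
        have h1 := key (x + v) (by
          rw [hψu, S.add, hx, hva, ← QuotientGroup.mk_mul]
          refine congrArg _ (Subtype.ext (Subtype.ext ?_))
          show (u : G) * val b * (u : G)⁻¹ = val b * val a
          rw [mul_inv_eq_iff_eq_mul.1 r]
          exact (h.goody.le _ hb.2).symm)
        rw [smul_add'] at h1
        refine h1.trans ?_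
        obtain ⟨r', hr'⟩ := hk
        exact ⟨r', by rw [← hr']; abel⟩
    obtain ⟨y, hy⟩ := fixed_class (k • x) hfix
    exact ⟨y, by rw [← hx, hTcongr _ _ hy]⟩
  -- counting
  let f : Multiplicative ↥Kev →* ↥Q ⧸ Subgroup.center ↥Q :=
    { toFun := fun x => T x.toAdd
      map_one' := by show ψ (k⁻¹ • four 0) = 1; rw [map_zero, show k⁻¹ • (0 : ↥leechLattice) = 0 from (coHom _).map_zero, S.map_zero]
      map_mul' := fun x y => by show ψ (k⁻¹ • four (x.toAdd + y.toAdd)) = _; rw [map_add, smul_add', S.add] }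
  have hker : f.ker = (parCode4.addSubgroupOf Kev).toSubgroup := by
    ext x
    rw [MonoidHom.mem_ker]
    show ψ (k⁻¹ • four x.toAdd) = 1 ↔ (x.toAdd : GolayPt → ℤ) ∈ parCode4
    rw [S.ker, ← four_double]
    constructor
    · rintro ⟨u, hu⟩
      exact ⟨k • u, by rw [← smul_add', ← hu, smul_inv_smul]⟩
    · rintro ⟨u, hu⟩
      exact ⟨k⁻¹ • u, by rw [hu, smul_add']⟩
  have hf : Nat.card f.range = 4096 := by
    rw [← Subgroup.index_ker, hker, AddSubgroup.index_toSubgroup]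
    show parCode4.relIndex Kev = 4096
    have h := AddSubgroup.relIndex_mul_index parCode4_le
    rw [index_parCode4, index_Kev] at h
    omega
  let A : Subgroup ↥Q := (Qf z ⊓ Qf (val a)).comap ((Subgroup.centralizer ({z} : Set G)).subtype.comp Q.subtype)
  have hA : Nat.card A = 2 ^ 13 := by
    rw [← hcardM]
    refine Nat.card_eq_of_bijective (fun x => ⟨val x.1, x.2⟩) ⟨fun x y e => ?_, fun x => ?_⟩
    · exact Subtype.ext (Subtype.ext (Subtype.ext (congrArg (Subtype.val : ↥(Qf z ⊓ Qf (val a)) → G) e)))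
    · obtain ⟨b, hb⟩ := (hmem _).1 (e1 ▸ x.2.1 : (x : G) ∈ Q.map (Subgroup.centralizer ({z} : Set G)).subtype)
      exact ⟨⟨b, show val b ∈ _ from hb.symm ▸ x.2⟩, Subtype.ext hb⟩
  have hle : A.map (QuotientGroup.mk' _) ≤ f.range := by
    rintro _ ⟨b, hb, rfl⟩
    obtain ⟨y, hy⟩ := hmeet b hb
    exact ⟨Multiplicative.ofAdd y, hy⟩
  have heq : A.map (QuotientGroup.mk' _) = f.range := by
    refine Subgroup.eq_of_le_of_card_ge hle ?_
    rw [hf]
    have h1 := Subgroup.card_mul_index ((QuotientGroup.mk' (Subgroup.center ↥Q)).comp A.subtype).ker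
    rw [Subgroup.index_ker, MonoidHom.range_comp, Subgroup.range_subtype, hA] at h1
    have h2 : Nat.card ((QuotientGroup.mk' (Subgroup.center ↥Q)).comp A.subtype).ker ≤ 2 := by
      rw [← S.card_center]
      refine Nat.card_le_card_of_injective (fun x => (⟨(x.1 : ↥Q), (QuotientGroup.eq_one_iff _).1 x.2⟩ : Subgroup.center ↥Q)) ?_
      intro x y e
      exact Subtype.ext (Subtype.ext (congrArg (fun t : Subgroup.center ↥Q => (t : ↥Q)) e))
    have h3 := Nat.mul_le_mul_right (Nat.card (A.map (QuotientGroup.mk' (Subgroup.center ↥Q)))) h2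
    rw [h1] at h3
    omega
  -- a frame vector
  let u : ↥leechLattice := Psi.fr none (some 0)
  have hu4 : ∀ i, (4 : ℤ) ∣ (u : GolayPt → ℤ) i := fun i => by
    show (4 : ℤ) ∣ frame none (some 0) i
    simp only [frame]; split_ifs <;> norm_num
  obtain ⟨y, hy⟩ := four_of_dvd hu4
  obtain ⟨b, hb, hby⟩ : T y ∈ A.map (QuotientGroup.mk' _) := heq ▸ ⟨Multiplicative.ofAdd y, rfl⟩
  refine ⟨k⁻¹ • u, b, (Same.sqNorm_eq ⟨k⁻¹, rfl⟩).trans ?_, by rw [← hy]; exact hby.symm, ?_⟩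
  · show sqNorm (frame none (some 0)) = 32
    decide +kernel
  · have hbg : val b ∈ (Q.map (Subgroup.centralizer ({z} : Set G)).subtype).map (MulAut.conj g).toMonoidHom := e2 ▸ hb.2
    obtain ⟨q, hq, hqb⟩ := hbg
    rw [← hqb]
    show g⁻¹ * (g * q * g⁻¹) * g ∈ _
    rwa [show g⁻¹ * (g * q * g⁻¹) * g = q by group]

/-- The centralizer of a non-conjugate involution moves the central involution inside `Q`. -/
theorem exists_move {b : ↥Q} (h2 : val b * val b = 1) (h1 : val b ≠ 1) (hnc : ¬ IsConj z (val b)) :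
    ∃ g : G, g * val b * g⁻¹ = val b ∧ (∃ c : ↥Q, val c = g * z * g⁻¹) ∧ g * z * g⁻¹ ≠ z ∧ g * z * g⁻¹ ≠ z * val b := by
  obtain ⟨-, -, -, -, hmem⟩ := base hS
  obtain ⟨g, ⟨hq, hgQ⟩, hgz⟩ := hS.2.2.2.2
  obtain ⟨w, t, hw, hwt, htg⟩ := frame_in_meet hS hψ (g := g) (a := ⟨_, hgQ⟩) rfl hgz
  obtain ⟨ht1, htz, htc⟩ := min_not_conj hS hψ hw hwt
  obtain ⟨t', ht'⟩ := (hmem _).1 htg
  obtain ⟨w', hw', hwt'⟩ := min_rep hS hψ (b := t') (by
      rw [ht']
      obtain ⟨v, -, hva⟩ : ∃ v : ↥leechLattice, True ∧ ψ v = QuotientGroup.mk t := ⟨w, trivial, hwt⟩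
      have hq0 : (psi_of hS hψ).qform w = 0 := by rw [qform_eq hS hψ, hw]; rfl
      rw [Psi.qform, hwt, sqF_mk (psi_of hS hψ).card_center, chi_eq_zero] at hq0
      have : val t * val t = 1 := congrArg (fun q : ↥Q => val q) hq0
      calc g⁻¹ * val t * g * (g⁻¹ * val t * g) = g⁻¹ * (val t * val t) * g := by group
        _ = 1 := by rw [this]; group)
    (by rw [ht']; intro e0; exact ht1 (by rw [show val t = g * (g⁻¹ * val t * g) * g⁻¹ by group, e0]; group))
    (fun hc => htc (hc.trans (isConj_iff.2 ⟨g, by rw [ht']; group⟩)))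
  obtain ⟨wb, hwb, hwbb⟩ := min_rep hS hψ h2 h1 hnc
  obtain ⟨hb1, hbz, -⟩ := min_not_conj hS hψ hwb hwbb
  obtain ⟨k1, hk1⟩ := trans_min hw hwb
  obtain ⟨c1, -, hc1⟩ := lift_eq hS hψ hwt hwbb (congrArg ψ hk1) hb1 hbz
  obtain ⟨k2, hk2⟩ := trans_min hw' hw
  obtain ⟨c2, -, hc2⟩ := lift_eq hS hψ hwt' hwt (congrArg ψ hk2) ht1 htz
  refine ⟨(c1 : G) * (g * (c2 : G)⁻¹) * (c1 : G)⁻¹, ?_, ?_⟩
  · rw [← hc1]
    conv_rhs => rw [show val t = g * (g⁻¹ * val t * g) * g⁻¹ by group, ← ht']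
    rw [← hc2]; group
  have hcz : ∀ c : Subgroup.centralizer ({z} : Set G), (c : G)⁻¹ * z * (c : G) = z := fun c => by
    rw [mul_assoc, ← Subgroup.mem_centralizer_singleton_iff.1 c.2, inv_mul_cancel_left]
  have himg : (c1 : G) * (g * (c2 : G)⁻¹) * (c1 : G)⁻¹ * z * ((c1 : G) * (g * (c2 : G)⁻¹) * (c1 : G)⁻¹)⁻¹ =
      (c1 : G) * (g * z * g⁻¹) * (c1 : G)⁻¹ := by
    calc _ = (c1 : G) * (g * ((c2 : G)⁻¹ * ((c1 : G)⁻¹ * z * (c1 : G)) * (c2 : G)) * g⁻¹) * (c1 : G)⁻¹ := by group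
      _ = _ := by rw [hcz c1, hcz c2]
  rw [himg]
  refine ⟨⟨⟨c1 * ⟨_, hq⟩ * c1⁻¹, (inferInstance : Q.Normal).conj_mem _ hgQ c1⟩, rfl⟩, fun e0 => hgz ?_, fun e0 => ?_⟩
  · calc g * z * g⁻¹ = (c1 : G)⁻¹ * ((c1 : G) * (g * z * g⁻¹) * (c1 : G)⁻¹) * (c1 : G) := by group
      _ = z := by rw [e0, hcz c1]
  · have hzQ : (⟨z, Subgroup.mem_centralizer_singleton_iff.2 rfl⟩ : Subgroup.centralizer ({z} : Set G)) ∈ Q := by
      obtain ⟨q, hq'⟩ := (hmem z).1 ((good hS).mem)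
      have hqz : (q : Subgroup.centralizer ({z} : Set G)) = ⟨z, Subgroup.mem_centralizer_singleton_iff.2 rfl⟩ := Subtype.ext hq'
      exact hqz ▸ q.2
    let zQ : ↥Q := ⟨_, hzQ⟩
    have hzc : ψ wb = QuotientGroup.mk (zQ * b) := by
      rw [QuotientGroup.mk_mul, (QuotientGroup.eq_one_iff zQ).2 (((base hS).2.2.2.1 zQ).2 (Or.inr rfl)), one_mul, hwbb]
    refine (min_not_conj hS hψ hwb hzc).2.2 (isConj_iff.2 ⟨(c1 : G) * g, ?_⟩)
    show _ = z * val b
    rw [← e0]; group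

end Cfsg.Agent.Lib.Monster
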