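import Cfsg.Agent.Lib.Monster.Classes
import Cfsg.Agent.Lib.Leech.Frame

/-!
The meet of two orthogonal extraspecial subgroups in a Monster-type group.
-/

set_option autoImplicit false

namespace Cfsg.Agent.Lib.Monster

open Cfsg Golay Lib.Leech Lib.LargeExtra
open scoped Pointwise

theorem half {H : Type*} [Group H] [Fintype H] (f : H → ZMod 2) (hf : ∀ x y, f (x * y) = f x + f y) {q : H}
    (hq : f q = 1) : 2 * (Finset.univ.filter fun x => f x = 0).card = Fintype.card H := by
  classical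
  have h2 : ∀ a : ZMod 2, a = 0 ∨ a = 1 := by decide
  have e : (Finset.univ.filter fun x => ¬ f x = 0).card = (Finset.univ.filter fun x => f x = 0).card := by
    refine Finset.card_bij' (fun x _ => q * x) (fun x _ => q⁻¹ * x) ?_ ?_ (fun x _ => by group) (fun x _ => by group)
    · intro x hx
      simp only [Finset.mem_filter, Finset.mem_univ, true_and] at hx ⊢
      rw [hf, hq, (h2 _).resolve_left hx]; decide
    · intro x hx
      simp only [Finset.mem_filter, Finset.mem_univ, true_and] at hx ⊢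
      intro e
      have h := hf q (q⁻¹ * x)
      rw [mul_inv_cancel_left, hq, hx, e] at h
      exact absurd h (by decide)
  have h := Finset.card_filter_add_card_filter_not (s := (Finset.univ : Finset H)) (fun x => f x = 0)
  rw [Finset.card_univ, e] at h
  omega

/-- An abelian subgroup is small. -/
theorem abelian_bound {P : Type*} [Group P] [Finite P] (hc : Nat.card (Subgroup.center P) = 2)
    (hcomm : ∀ a b : P, a * b * a⁻¹ * b⁻¹ ∈ Subgroup.center P) (A : Subgroup P)
    (hA : ∀ a ∈ A, ∀ b ∈ A, a * b = b * a) : Nat.card A * Nat.card A ≤ 2 * Nat.card P := by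
  classical
  haveI := Fintype.ofFinite P
  let f : P → P → ZMod 2 := fun x a => commF (QuotientGroup.mk x) (QuotientGroup.mk a)
  have hf0 : ∀ x a, f x a = 0 ↔ x * a = a * x := fun x a => by
    rw [show f x a = chi (x * a * x⁻¹ * a⁻¹) from commF_mk _ _, chi_eq_zero]
    exact commutatorElement_eq_one_iff_mul_comm
  have hfl : ∀ a x y, f (x * y) a = f x a + f y a := fun a x y => by
    simp only [f, QuotientGroup.mk_mul]
    rw [commF_symm hc hcomm, commF_mul_right hc hcomm, commF_symm hc hcomm _ (QuotientGroup.mk x),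
      commF_symm hc hcomm _ (QuotientGroup.mk y)]
  have hfr : ∀ x a b, f x (a * b) = f x a + f x b := fun x a b => by
    simp only [f, QuotientGroup.mk_mul]
    exact commF_mul_right hc hcomm _ _ _
  have h2 : ∀ a : ZMod 2, a ≠ 0 → a = 1 := by decide
  let Z : Finset ↥A := Finset.univ.filter fun a => (a : P) ∈ Subgroup.center P
  have hZ : Z.card ≤ 2 := by
    haveI := Fintype.ofFinite (Subgroup.center P)
    rw [Nat.card_eq_fintype_card] at hc
    rw [← hc, ← Finset.card_univ]
    refine Finset.card_le_card_of_injOn (fun a => if h : (a : P) ∈ Subgroup.center P then ⟨a, h⟩ else 1)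
      (fun _ _ => Finset.mem_univ _) fun a ha b hb e => ?_
    simp only [Z, Finset.coe_filter, Set.mem_setOf_eq, Finset.mem_univ, true_and] at ha hb
    simp only [dif_pos ha, dif_pos hb] at e
    exact Subtype.ext (congrArg (fun t : Subgroup.center P => (t : P)) e)
  let C : Finset P := Finset.univ.filter fun x => ∀ a : ↥A, f x a = 0
  have hC : Fintype.card ↥A ≤ C.card := by
    rw [← Finset.card_univ]
    exact Finset.card_le_card_of_injOn (fun a : ↥A => (a : P))
      (fun a _ => by simp only [C, Finset.coe_filter, Set.mem_setOf_eq, Finset.mem_univ, true_and]; exact fun b => (hf0 _ _).2 (hA _ a.2 _ b.2))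
      (fun a _ b _ e => Subtype.ext e)
  have colA : ∀ a : ↥A, 2 * (Finset.univ.filter fun x : P => f x a = 0).card =
      Fintype.card P + if a ∈ Z then Fintype.card P else 0 := by
    intro a
    by_cases ha : (a : P) ∈ Subgroup.center P
    · have hall : (Finset.univ.filter fun x : P => f x a = 0) = Finset.univ :=
        Finset.filter_true_of_mem fun x _ => (hf0 x a).2 (Subgroup.mem_center_iff.1 ha x)
      rw [hall, Finset.card_univ, if_pos (by simp [Z, ha])]
      omega
    · obtain ⟨q, hq⟩ : ∃ q, f q a ≠ 0 := by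
        by_contra hno
        push Not at hno
        exact ha (Subgroup.mem_center_iff.2 fun x => (hf0 x a).1 (hno x))
      rw [half (fun x => f x a) (hfl a) (h2 _ hq), if_neg (by simp [Z, ha]), add_zero]
  have rowP : ∀ x : P, 2 * (Finset.univ.filter fun a : ↥A => f x a = 0).card =
      Fintype.card ↥A + if x ∈ C then Fintype.card ↥A else 0 := by
    intro x
    by_cases hx : ∀ a : ↥A, f x a = 0
    · rw [Finset.filter_true_of_mem (fun a _ => hx a), Finset.card_univ, if_pos (by simp only [C, Finset.mem_filter, Finset.mem_univ, true_and]; exact hx)]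
      omega
    · obtain ⟨q, hq⟩ := not_forall.1 hx
      rw [half (fun a : ↥A => f x a) (fun a b => hfr x a b) (h2 _ hq),
        if_neg (by simp only [C, Finset.mem_filter, Finset.mem_univ, true_and]; exact hx), add_zero]
  have hsum : ∑ a : ↥A, 2 * (Finset.univ.filter fun x : P => f x a = 0).card =
      ∑ x : P, 2 * (Finset.univ.filter fun a : ↥A => f x a = 0).card := by
    rw [← Finset.mul_sum, ← Finset.mul_sum]
    congr 1
    simp only [Finset.card_filter]
    exact Finset.sum_comm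
  simp only [colA, rowP, Finset.sum_add_distrib, Finset.sum_const, Finset.card_univ, smul_eq_mul, Finset.sum_ite_mem,
    Finset.univ_inter] at hsum
  rw [Nat.card_eq_fintype_card, Nat.card_eq_fintype_card]
  have h4 : C.card * Fintype.card ↥A = Z.card * Fintype.card P := by rw [mul_comm (Fintype.card P)] at hsum; omega
  calc Fintype.card ↥A * Fintype.card ↥A ≤ C.card * Fintype.card ↥A := Nat.mul_le_mul_right _ hC
    _ = Z.card * Fintype.card P := h4
    _ ≤ _ := Nat.mul_le_mul_right _ hZ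

variable {G : Type*} [Group G] [Finite G] {z : G} {Q : Subgroup (Subgroup.centralizer ({z} : Set G))} [Q.Normal]

/-- The meet and the image of a conjugate of `Q` in `C / Q`, relative to a given transport of the class. -/
theorem meet_at (hS : IsExtraspecialCentralizerSetting z Q 12) {e : (Subgroup.centralizer ({z} : Set G)) ⧸ Q ≃* Spor.Co1}
    {ψ : ↥leechLattice → ↥Q ⧸ Subgroup.center ↥Q} (hψ : IsLeechModTwoIso Q e ψ) {g : G} {a : ↥Q}
    (ha : g * z * g⁻¹ = val a) (hne : val a ≠ z) {v : ↥leechLattice} (hv : sqNorm (v : GolayPt → ℤ) = 64)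
    (hva : ψ v = QuotientGroup.mk a) {k : ↥Co0} (hk : Cong (k • v) (e8 none))
    (X E : Subgroup ((Subgroup.centralizer ({z} : Set G)) ⧸ Q))
    (hX : X = ((Subgroup.centralizer ({z} : Set G) ⊓ Subgroup.centralizer ({val a} : Set G)).subgroupOf (Subgroup.centralizer ({z} : Set G))).map (QuotientGroup.mk' Q))
    (hE : E = (((Q.map (Subgroup.centralizer ({z} : Set G)).subtype).map (MulAut.conj g).toMonoidHom ⊓ Subgroup.centralizer ({z} : Set G)).subgroupOf (Subgroup.centralizer ({z} : Set G))).map (QuotientGroup.mk' Q)) :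
    Nat.card ↥((Q.map (Subgroup.centralizer ({z} : Set G)).subtype) ⊓ (Q.map (Subgroup.centralizer ({z} : Set G)).subtype).map (MulAut.conj g).toMonoidHom) = 2 ^ 13 ∧
    Nat.card E = 2 ^ 11 ∧ ∃ Φ : ↥(MulAction.stabilizer ↥Co0 cross0) →* (Subgroup.centralizer ({z} : Set G)) ⧸ Q,
      (∀ n, e (Φ n) = QuotientGroup.mk (k⁻¹ * (n : ↥Co0) * k)) ∧
      Φ.range = X ∧ (flips.subgroupOf (MulAction.stabilizer ↥Co0 cross0)).map Φ = E ∧
      ∀ n, Φ n = 1 → (n : ↥Co0) ∈ flips := by
  classical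
  haveI : Finite ↥Co0 := Nat.finite_of_card_ne_zero (by rw [card_Co0]; norm_num)
  obtain ⟨-, -, hcardP, hcen, hmem⟩ := base hS
  obtain ⟨Qf, h, e1, e2⟩ := pair hS ha hne
  have S := psi_of hS hψ
  obtain ⟨hv1, hvz⟩ := four_ne hS hψ hv hva
  rw [← e2] at hE ⊢
  rw [← e1] at hcardP hmem ⊢
  let Φ : ↥(MulAction.stabilizer ↥Co0 cross0) →* (Subgroup.centralizer ({z} : Set G)) ⧸ Q :=
    e.symm.toMonoidHom.comp ((QuotientGroup.mk' (Subgroup.center ↥Co0)).comp
      ((MulAut.conj k⁻¹).toMonoidHom.comp (MulAction.stabilizer ↥Co0 cross0).subtype))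
  have hΦ : ∀ n, e (Φ n) = QuotientGroup.mk (k⁻¹ * (n : ↥Co0) * k) := fun n => by
    show e (e.symm (QuotientGroup.mk (k⁻¹ * (n : ↥Co0) * (k⁻¹)⁻¹))) = _
    rw [inv_inv, MulEquiv.apply_symm_apply]
  -- the class stabilizer
  have hclass : ∀ u : ↥Co0, Cong (u • v) v → (k * u * k⁻¹) • cross0 = cross0 := fun u hu => by
    refine mem_stab_cross0.2 ?_
    rw [mul_smul, mul_smul]
    refine (Cong.smul (Cong.trans ?_ hu) k).trans hk
    refine Cong.smul ?_ u
    have := (hk.smul k⁻¹).symm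
    rwa [inv_smul_smul] at this
  have hclass' : ∀ n : ↥(MulAction.stabilizer ↥Co0 cross0), Cong ((k⁻¹ * (n : ↥Co0) * k) • v) v := fun n => by
    rw [mul_smul, mul_smul]
    have h1 : Cong ((n : ↥Co0) • k • v) (k • v) :=
      ((hk.smul (n : ↥Co0)).trans (mem_stab_cross0.1 n.2)).trans hk.symm
    have h2 := h1.smul k⁻¹
    rwa [inv_smul_smul] at h2
  have hrange : Φ.range = X := by
    rw [hX]
    ext x
    constructor
    · rintro ⟨n, rfl⟩
      obtain ⟨w, hw⟩ := hclass' n
      obtain ⟨c, hc, hca⟩ := lift_eq hS hψ hva hva (S.congr_two _ v w (by rw [← hw]; abel)) hv1 hvz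
      refine ⟨c, ⟨c.2, Subgroup.mem_centralizer_singleton_iff.2 ?_⟩, e.injective ?_⟩
      · exact mul_inv_eq_iff_eq_mul.1 hca
      · rw [hΦ, hc]; rfl
    · rintro ⟨c, hc, rfl⟩
      obtain ⟨u, hu⟩ := QuotientGroup.mk_surjective (e (QuotientGroup.mk c))
      have huv : ψ (u • v + -v) = 1 := by
        rw [S.add, S.map_neg, hψ.2.2.2 c u hu v a hva, hva, ← QuotientGroup.mk_mul, QuotientGroup.eq_one_iff]
        have e0 : (⟨c * a * c⁻¹, (inferInstance : Q.Normal).conj_mem (a : Subgroup.centralizer ({z} : Set G)) a.2 c⟩ : ↥Q) = a :=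
          Subtype.ext (Subtype.ext (mul_inv_eq_iff_eq_mul.2 (Subgroup.mem_centralizer_singleton_iff.1 hc.2)))
        rw [e0]
        exact S.sq a
      obtain ⟨w, hw⟩ := (hψ.2.2.1 _).1 huv
      refine ⟨⟨k * u * k⁻¹, hclass u ⟨w, by rw [sub_eq_add_neg, hw]⟩⟩, e.injective ?_⟩
      rw [hΦ, QuotientGroup.mk'_apply, ← hu]
      congr 1
      show k⁻¹ * (k * u * k⁻¹) * k = u
      group
  have hker1 : ∀ n, Φ n = 1 → (n : ↥Co0) = 1 ∨ (n : ↥Co0) = negCo := by
    intro n hn
    have h1 := hΦ n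
    rw [hn, map_one, eq_comm, QuotientGroup.eq_one_iff] at h1
    refine center_cases ?_
    have h2 : k * (k⁻¹ * (n : ↥Co0) * k) * k⁻¹ ∈ Subgroup.center ↥Co0 :=
      (inferInstance : (Subgroup.center ↥Co0).Normal).conj_mem _ h1 k
    rwa [show k * (k⁻¹ * (n : ↥Co0) * k) * k⁻¹ = (n : ↥Co0) by group] at h2
  have hflips : ∀ n, Φ n = 1 → (n : ↥Co0) ∈ flips := fun n hn => by
    rcases hker1 n hn with r | r <;> rw [r]
    exacts [one_mem _, negCo_flips]
  have hker : Nat.card Φ.ker = 2 := by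
    rw [← Nat.card_congr (Subgroup.equivMapOfInjective Φ.ker _ (MulAction.stabilizer ↥Co0 cross0).subtype_injective).symm.toEquiv,
      ← card_center]
    congr 2
    apply le_antisymm
    · rintro _ ⟨n, hn, rfl⟩
      rcases hker1 n hn with r | r
      · show (n : ↥Co0) ∈ _
        rw [r]; exact one_mem _
      · show (n : ↥Co0) ∈ _
        rw [r]
        exact Subgroup.mem_center_iff.2 fun k => co_ext fun i => by rw [mul_smul, mul_smul, negCo_smul, negCo_smul, smul_neg']
    · intro c hc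
      have hst : c ∈ MulAction.stabilizer ↥Co0 cross0 := by
        rcases center_cases hc with r | r <;> rw [r]
        exacts [one_mem _, flips_le negCo_flips]
      refine ⟨⟨c, hst⟩, e.injective ?_, rfl⟩
      rw [hΦ, map_one, QuotientGroup.eq_one_iff]
      show k⁻¹ * c * k ∈ Subgroup.center ↥Co0
      rwa [show k⁻¹ * c * k = c by rw [mul_assoc, ← Subgroup.mem_center_iff.1 hc k, inv_mul_cancel_left]]
  -- the image of the conjugate
  set B := (Qf (val a) ⊓ Subgroup.centralizer ({z} : Set G)).subgroupOf (Subgroup.centralizer ({z} : Set G)) with hB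
  have hEX : E ≤ X := by
    rw [hE, hX]
    exact Subgroup.map_mono fun c hc => ⟨c.2, Subgroup.mem_centralizer_singleton_iff.2 (h.goody.le _ hc.1)⟩
  have hnorm : ∀ x ∈ X, ∀ y ∈ E, x * y * x⁻¹ ∈ E := by
    rw [hX, hE]
    rintro _ ⟨c, hc, rfl⟩ _ ⟨b, hb, rfl⟩
    refine ⟨c * b * c⁻¹, ⟨?_, (c * b * c⁻¹).2⟩, by simp⟩
    exact h.goody.norm _ (Subgroup.mem_centralizer_singleton_iff.1 hc.2) _ hb.1
  have hEp : IsPGroup 2 ↥E := by
    rw [hE]
    exact (((h.py.to_le inf_le_left : IsPGroup 2 ↥(Qf (val a) ⊓ Subgroup.centralizer ({z} : Set G))).of_equiv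
      (Subgroup.subgroupOfEquivOfLe inf_le_right).symm)).map _
  let N := E.comap Φ
  haveI : N.Normal := ⟨fun n hn m => by
    show Φ (m * n * m⁻¹) ∈ E
    rw [map_mul, map_mul, map_inv]
    exact hnorm _ (hrange ▸ ⟨m, rfl⟩) _ hn⟩
  have hNp : IsPGroup 2 ↥N := by
    rintro ⟨n, hn⟩
    obtain ⟨j, hj⟩ := hEp ⟨Φ n, hn⟩
    refine ⟨j + 1, Subtype.ext ?_⟩
    have h1 : Φ (n ^ 2 ^ j) = 1 := by rw [map_pow]; exact congrArg Subtype.val hj
    show n ^ 2 ^ (j + 1) = 1
    rw [pow_succ, pow_mul, pow_two]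
    exact Subtype.ext (flips_sq (hflips _ h1))
  have hNf : N ≤ flips.subgroupOf (MulAction.stabilizer ↥Co0 cross0) := fun n hn => two_normal_le_flips N hNp n hn
  have hflc : Nat.card (flips.subgroupOf (MulAction.stabilizer ↥Co0 cross0)) = 4096 := by
    rw [Nat.card_congr (Subgroup.subgroupOfEquivOfLe flips_le).toEquiv, card_flips]
  have hNmap : N.map Φ = E := Subgroup.map_comap_eq_self (hrange ▸ hEX)
  have hNcard : Nat.card N = 2 * Nat.card E := by
    have h1 := Subgroup.card_mul_index (Φ.comp N.subtype).ker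
    have h2 : Nat.card (Φ.comp N.subtype).ker = 2 := by
      rw [← hker]
      refine Nat.card_congr ⟨fun x => ⟨x.1.1, x.2⟩, fun x => ⟨⟨x.1, ?_⟩, x.2⟩, fun x => rfl, fun x => rfl⟩
      show Φ x.1 ∈ E
      rw [show Φ x.1 = 1 from x.2]; exact one_mem _
    rw [Subgroup.index_ker, h2, MonoidHom.range_comp, Subgroup.range_subtype, hNmap] at h1
    exact h1.symm
  have hEle : Nat.card E ≤ 2048 := by
    have := Subgroup.card_le_of_le hNf
    rw [hNcard, hflc] at this
    omega
  -- counting in the conjugate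
  have hcardy : Nat.card ↥(Qf (val a)) = 2 ^ 25 := by
    rw [e2, ← e1, Subgroup.card_map_of_injective (MulAut.conj g).injective, hcardP]
  have hBy : Nat.card B = 2 ^ 24 := by
    rw [Nat.card_congr (Subgroup.subgroupOfEquivOfLe inf_le_right).toEquiv]
    obtain ⟨q0, hq0, hq0z⟩ := h.symm.exists_q0
    have hidx : ((Qf (val a) ⊓ Subgroup.centralizer ({z} : Set G)).subgroupOf (Qf (val a))).index = 2 := by
      rw [Subgroup.index_eq_two_iff]
      refine ⟨⟨q0, hq0⟩, fun b => ?_⟩
      have hmemB : ∀ q : ↥(Qf (val a)), q ∈ (Qf (val a) ⊓ Subgroup.centralizer ({z} : Set G)).subgroupOf (Qf (val a)) ↔ (q : G) * z * (q : G)⁻¹ = z := fun q => by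
        rw [Subgroup.mem_subgroupOf, Subgroup.mem_inf, Subgroup.mem_centralizer_singleton_iff, mul_inv_eq_iff_eq_mul]
        exact and_iff_right q.2
      rw [hmemB, hmemB]
      rcases h.goody.comm b b.2 z h.memz with r | r
      · have hb : (b : G) * z * (b : G)⁻¹ = z := mul_inv_eq_one.1 r
        refine Or.inr ⟨hb, fun hq => h.goody.ne ?_⟩
        have e0 : (b : G) * (q0 * z * q0⁻¹) * (b : G)⁻¹ = z :=
          (show (b : G) * (q0 * z * q0⁻¹) * (b : G)⁻¹ = ((b : G) * q0) * z * ((b : G) * q0)⁻¹ by group).trans hq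
        rw [hq0z, show (b : G) * (val a * z) * (b : G)⁻¹ = ((b : G) * val a * (b : G)⁻¹) * ((b : G) * z * (b : G)⁻¹) by group, hb,
          mul_inv_eq_iff_eq_mul.2 (h.goody.le b b.2)] at e0
        exact mul_eq_right.1 e0
      · have hb : (b : G) * z * (b : G)⁻¹ = val a * z := mul_inv_eq_iff_eq_mul.1 r
        refine Or.inl ⟨?_, fun hq => h.goody.ne (by rw [hb] at hq; exact mul_eq_right.1 hq)⟩
        show (b : G) * q0 * z * ((b : G) * q0)⁻¹ = z
        rw [show (b : G) * q0 * z * ((b : G) * q0)⁻¹ = (b : G) * (q0 * z * q0⁻¹) * (b : G)⁻¹ by group, hq0z,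
          show (b : G) * (val a * z) * (b : G)⁻¹ = ((b : G) * val a * (b : G)⁻¹) * ((b : G) * z * (b : G)⁻¹) by group, hb,
          mul_inv_eq_iff_eq_mul.2 (h.goody.le b b.2), ← mul_assoc, h.goody.sq, one_mul]
    have h1 := Subgroup.card_mul_index ((Qf (val a) ⊓ Subgroup.centralizer ({z} : Set G)).subgroupOf (Qf (val a)))
    rw [hidx, hcardy, Nat.card_congr (Subgroup.subgroupOfEquivOfLe inf_le_left).toEquiv] at h1
    omega
  have hprod : Nat.card ↥(Qf z ⊓ Qf (val a)) * Nat.card E = 2 ^ 24 := by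
    have h1 := Subgroup.card_mul_index ((QuotientGroup.mk' Q).comp B.subtype).ker
    rw [Subgroup.index_ker, MonoidHom.range_comp, Subgroup.range_subtype, ← hE, hBy] at h1
    rw [← h1]
    congr 1
    have hz : ∀ x ∈ Qf z, x ∈ Subgroup.centralizer ({z} : Set G) := fun x hx =>
      Subgroup.mem_centralizer_singleton_iff.2 (h.goodz.le x hx)
    refine Nat.card_congr ⟨fun x => ⟨⟨⟨x, hz x x.2.1⟩, ⟨x.2.2, hz x x.2.1⟩⟩, ?_⟩, fun x => ⟨((x.1 : Subgroup.centralizer ({z} : Set G)) : G), ⟨?_, x.1.2.1⟩⟩, fun x => rfl, fun x => rfl⟩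
    · obtain ⟨b, hb⟩ := (hmem _).1 x.2.1
      refine (QuotientGroup.eq_one_iff _).2 ?_
      have hb' : (b : Subgroup.centralizer ({z} : Set G)) = ⟨x, hz x x.2.1⟩ := Subtype.ext hb
      show (⟨x, hz x x.2.1⟩ : Subgroup.centralizer ({z} : Set G)) ∈ Q
      exact hb' ▸ b.2
    · exact (hmem _).2 ⟨⟨_, (QuotientGroup.eq_one_iff _).1 x.2⟩, rfl⟩
  have hEG : Nat.card ↥(Qf z ⊓ Qf (val a)) * Nat.card ↥(Qf z ⊓ Qf (val a)) ≤ 2 ^ 26 := by
    let A : Subgroup ↥Q := (Qf z ⊓ Qf (val a)).comap ((Subgroup.centralizer ({z} : Set G)).subtype.comp Q.subtype)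
    have hA : Nat.card A = Nat.card ↥(Qf z ⊓ Qf (val a)) := by
      refine Nat.card_eq_of_bijective (fun x => ⟨val x.1, x.2⟩) ⟨fun x y e => ?_, fun x => ?_⟩
      · exact Subtype.ext (Subtype.ext (Subtype.ext (congrArg (Subtype.val : ↥(Qf z ⊓ Qf (val a)) → G) e)))
      · obtain ⟨b, hb⟩ := (hmem _).1 x.2.1
        exact ⟨⟨b, show val b ∈ _ from hb.symm ▸ x.2⟩, Subtype.ext hb⟩
    have := abelian_bound S.card_center S.comm A fun x hx y hy => Subtype.ext (Subtype.ext (h.E_comm hx hy))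
    rw [hA, hS.2.2.2.1] at this
    norm_num at this ⊢
    exact this
  have hle13 : Nat.card ↥(Qf z ⊓ Qf (val a)) ≤ 2 ^ 13 := by
    by_contra hlt
    push Not at hlt
    nlinarith
  have hE13 : Nat.card ↥(Qf z ⊓ Qf (val a)) = 2 ^ 13 ∧ Nat.card E = 2 ^ 11 := by
    norm_num at hprod hle13 ⊢
    constructor <;> nlinarith
  refine ⟨hE13.1, hE13.2, Φ, hΦ, hrange, ?_, hflips⟩
  rw [← hNmap]
  congr 1
  refine (Subgroup.eq_of_le_of_card_ge hNf ?_).symm
  rw [hflc, hNcard, hE13.2]
  norm_num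

/-- The meet and the image of a conjugate of `Q` in `C / Q`, with the structure of its normalizer. -/
theorem meet (hM : IsOfMonsterType z Q) {g : G} {a : ↥Q} (ha : g * z * g⁻¹ = val a) (hne : val a ≠ z)
    (X E : Subgroup ((Subgroup.centralizer ({z} : Set G)) ⧸ Q))
    (hX : X = ((Subgroup.centralizer ({z} : Set G) ⊓ Subgroup.centralizer ({val a} : Set G)).subgroupOf (Subgroup.centralizer ({z} : Set G))).map (QuotientGroup.mk' Q))
    (hE : E = (((Q.map (Subgroup.centralizer ({z} : Set G)).subtype).map (MulAut.conj g).toMonoidHom ⊓ Subgroup.centralizer ({z} : Set G)).subgroupOf (Subgroup.centralizer ({z} : Set G))).map (QuotientGroup.mk' Q)) :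
    Nat.card ↥((Q.map (Subgroup.centralizer ({z} : Set G)).subtype) ⊓ (Q.map (Subgroup.centralizer ({z} : Set G)).subtype).map (MulAut.conj g).toMonoidHom) = 2 ^ 13 ∧
    Nat.card E = 2 ^ 11 ∧ ∃ Φ : ↥(MulAction.stabilizer ↥Co0 cross0) →* (Subgroup.centralizer ({z} : Set G)) ⧸ Q,
      Φ.range = X ∧ (flips.subgroupOf (MulAction.stabilizer ↥Co0 cross0)).map Φ = E ∧
      ∀ n, Φ n = 1 → (n : ↥Co0) ∈ flips := by
  obtain ⟨hS, e, ψ, hψ⟩ := hM
  obtain ⟨v, hv, hva⟩ := conj_rep hS hψ ha hne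
  obtain ⟨k, hk⟩ := cross v hv
  obtain ⟨h1, h2, Φ, -, h3⟩ := meet_at hS hψ ha hne hv hva hk X E hX hE
  exact ⟨h1, h2, Φ, h3⟩

end Cfsg.Agent.Lib.Monster
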